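import Cfsg.Agent.H58.Wreath.SU.Setup
import Cfsg.Agent.H99.TensorU.Generate

/-!
Layers in a group of isometries containing the right factor: the coefficients form a space closed under quadratic
operations, and with all skew coefficients all transvections occur.
-/

set_option autoImplicit false
set_option linter.unusedSectionVars false

namespace Cfsg.Agent.H66.TensorWreathSU

open Matrix
open Cfsg.Agent.H99.Tensor
open Cfsg.Agent.H99.TensorU (sp sp_star sp_zero_comm sp_smul_left sp_smul_right sp_add_left sp_add_right sp_sub_right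
  sp_zero_left sp_zero_right nil vmv_mul vmv_mulVec vmv_conj vmv_conjTranspose vmv_add_left vmv_add_right vmv_smul_left
  vmv_smul_right trans_unitary exists_move exists_skew exists_trace exists_iso_in exists_iso_perp exists_iso_not_perp₂
  partner kron_conjTranspose lft_conjTranspose kron_vmv pv sp_pv_left sp_layers InLay)
open scoped Kronecker

variable {F : Type*} [Field F] [StarRing F] [Finite F] {α : Type} [Fintype α] [DecidableEq α] {b : ℕ}

local notation "Ix" => α × Fin b

/-- A group of isometries containing the right factor. -/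
structure Slotted (M : Subgroup (GL (α × Fin b) F)) : Prop where
  iso : ∀ y ∈ M, (y : Matrix (α × Fin b) (α × Fin b) F) * (y : Matrix (α × Fin b) (α × Fin b) F)ᴴ = 1
  right : ∀ k : Matrix (Fin b) (Fin b) F, k * kᴴ = 1 → k.det = 1 → InM M ((1 : Matrix α α F) ⊗ₖ k)
  three : 3 ≤ b
  ns : ∃ x : F, star x ≠ x

variable {M : Subgroup (GL (α × Fin b) F)} (H : Slotted M)
include H

theorem Slotted.unit {X : Matrix Ix Ix F} (hX : InM M X) : X * Xᴴ = 1 := by
  obtain ⟨y, hy, rfl⟩ := hX
  exact H.iso y hy

theorem Slotted.unit' {X : Matrix Ix Ix F} (hX : InM M X) : Xᴴ * X = 1 := mul_eq_one_comm.1 (H.unit hX)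

theorem Slotted.inv {X : Matrix Ix Ix F} (hX : InM M X) : InM M Xᴴ := hX.inv (H.unit hX)

theorem Slotted.conj {A X : Matrix Ix Ix F} (hA : InM M (1 + A)) (hX : InM M X) : InM M (1 + X * A * Xᴴ) :=
  hA.conj hX (H.unit hX)

theorem Slotted.right_factor (k : Matrix (Fin b) (Fin b) F) (hk : k * kᴴ = 1) (hd : k.det = 1) :
    InM M ((1 : Matrix α α F) ⊗ₖ k) := H.right k hk hd

theorem Slotted.trans {w : Fin b → F} {d : F} (hw : sp w w = 0) (hd : star d = -d) :
    InM M (1 + (d • (1 : Matrix α α F)) ⊗ₖ vecMulVec w (star w)) := by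
  have := H.right _ (trans_unitary hw hd).1 (trans_unitary hw hd).2
  rwa [kronecker_add, one_kronecker_one, kronecker_smul, ← smul_kronecker] at this

/-- Two layers of the same isotropic vector multiply by addition. -/
theorem Slotted.lay_mul {w : Fin b → F} (hw : sp w w = 0) {G G' : Matrix α α F}
    (hG : InM M (1 + G ⊗ₖ vecMulVec w (star w))) (hG' : InM M (1 + G' ⊗ₖ vecMulVec w (star w))) :
    InM M (1 + (G + G') ⊗ₖ vecMulVec w (star w)) := by
  have := hG.mul hG'
  rwa [Matrix.add_mul, Matrix.one_mul, Matrix.mul_add, Matrix.mul_one, ← mul_kronecker_mul, vmv_mul, hw,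
    zero_smul, kronecker_zero, add_zero, add_assoc, add_comm (G' ⊗ₖ _), ← add_kronecker] at this

theorem Slotted.lay_neg {w : Fin b → F} (hw : sp w w = 0) {G : Matrix α α F}
    (hG : InM M (1 + G ⊗ₖ vecMulVec w (star w))) : InM M (1 + (-G) ⊗ₖ vecMulVec w (star w)) := by
  have := hG.neg (by rw [← mul_kronecker_mul, vmv_mul, hw, zero_smul, kronecker_zero])
  rwa [sub_eq_add_neg, show -(G ⊗ₖ vecMulVec w (star w)) = (-G) ⊗ₖ vecMulVec w (star w) by
    rw [← neg_one_smul F (G ⊗ₖ vecMulVec w (star w)), ← smul_kronecker, neg_one_smul]] at this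

/-- The coefficient of a layer is skew. -/
theorem Slotted.lay_skew {w : Fin b → F} (hw0 : w ≠ 0) (hw : sp w w = 0) {G : Matrix α α F}
    (hG : InM M (1 + G ⊗ₖ vecMulVec w (star w))) : Gᴴ = -G := by
  have h := H.unit hG
  rw [conjTranspose_add, conjTranspose_one, kron_conjTranspose, vmv_conjTranspose, Matrix.add_mul, Matrix.one_mul,
    Matrix.mul_add, Matrix.mul_one, ← mul_kronecker_mul, vmv_mul, hw, zero_smul, kronecker_zero, add_zero,
    add_assoc, add_eq_left, ← add_kronecker] at h
  obtain ⟨k, hk⟩ := Function.ne_iff.1 hw0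
  ext i j
  have := congrFun (congrFun h (i, k)) (j, k)
  simp only [kronecker_apply, Matrix.add_apply, vecMulVec_apply, Pi.star_apply, Matrix.zero_apply, mul_eq_zero,
    star_eq_zero, or_self] at this
  rw [Matrix.neg_apply]
  linear_combination this.resolve_right hk

/-- Layers are moved by the second factor. -/
theorem Slotted.lay_move {w w' : Fin b → F} {G : Matrix α α F} {d : F} (hw : sp w w = 0)
    (hw' : sp w' w' = 0) (h : sp w' w ≠ 0) (hd0 : d ≠ 0) (hd : star d = -d)
    (hG : InM M (1 + G ⊗ₖ vecMulVec w (star w))) :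
    InM M (1 + (((d * sp w' w) * star (d * sp w' w)) • G) ⊗ₖ vecMulVec w' (star w')) := by
  obtain ⟨k, hk, hkd, hka⟩ := exists_move hw hw' h hd0 hd
  have := H.conj hG (H.right_factor k hk hkd)
  rw [kron_conjTranspose, ← mul_kronecker_mul, ← mul_kronecker_mul, conjTranspose_one, Matrix.one_mul,
    Matrix.mul_one, vmv_conj, hka, vmv_smul_left, vmv_smul_right, smul_smul, kronecker_smul, ← smul_kronecker] at this
  exact this

/-- A layer can be scaled by squares of fixed scalars. -/
theorem Slotted.lay_sq {w : Fin b → F} (hw0 : w ≠ 0) (hw : sp w w = 0) {G : Matrix α α F}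
    (hG : InM M (1 + G ⊗ₖ vecMulVec w (star w))) {r : F} (hr : star r = r) :
    InM M (1 + ((r * r) • G) ⊗ₖ vecMulVec w (star w)) := by
  rcases eq_or_ne r 0 with rfl | hr0
  · rw [zero_mul, zero_smul, zero_kronecker, add_zero]; exact InM.one
  obtain ⟨d, hd0, hd⟩ := exists_skew H.ns
  obtain ⟨w', hw'w', h1, h2⟩ := partner H.ns hw0 hw
  have hG1 := H.lay_move hw hw'w' (by rw [h2]; exact one_ne_zero) hd0 hd hG
  have hd2 : star (r / d) = -(r / d) := by rw [star_div₀, hr, hd, div_neg]
  have hG2 := H.lay_move hw'w' hw (by rw [h1]; exact one_ne_zero) (div_ne_zero hr0 hd0) hd2 hG1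
  rw [h1, h2, smul_smul, mul_one, mul_one, hd, hd2] at hG2
  convert hG2 using 4
  field_simp

/-- A layer can be scaled by fixed scalars. -/
theorem Slotted.lay_fixed {w : Fin b → F} (hw0 : w ≠ 0) (hw : sp w w = 0) {G : Matrix α α F}
    (hG : InM M (1 + G ⊗ₖ vecMulVec w (star w))) {r : F} (hr : star r = r) :
    InM M (1 + (r • G) ⊗ₖ vecMulVec w (star w)) := by
  by_cases h2 : (2 : F) = 0
  · have : CharP F 2 := CharTwo.of_one_ne_zero_of_two_eq_zero one_ne_zero h2
    obtain ⟨s, hs⟩ := FiniteField.isSquare_of_char_two (F := F) (ringChar.eq F 2) r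
    have hs' : star s = s := by
      have e : (star s - s) * (star s - s) = 0 := by
        have e' : star s * star s = s * s := by rw [← star_mul', ← hs, hr]
        linear_combination e' + (s * s - s * star s) * h2
      exact sub_eq_zero.1 (mul_self_eq_zero.1 e)
    rw [hs]
    exact H.lay_sq hw0 hw hG hs'
  · have h4 : ∀ x : F, star x = x → star (x / 2) = x / 2 := fun x hx => by rw [star_div₀, hx, star_ofNat]
    have := H.lay_mul hw (H.lay_sq hw0 hw hG (h4 (r + 1) (by rw [star_add, hr, star_one])))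
      (H.lay_neg hw (H.lay_sq hw0 hw hG (h4 (r - 1) (by rw [star_sub, hr, star_one]))))
    rw [← sub_eq_add_neg, ← sub_smul] at this
    convert this using 4
    field_simp
    ring

/-- A coefficient of one layer occurs in all. -/
theorem Slotted.inLay_of {w : Fin b → F} (hw0 : w ≠ 0) (hw : sp w w = 0) {G : Matrix α α F}
    (hG : InM M (1 + G ⊗ₖ vecMulVec w (star w))) : InLay M G := by
  have step : ∀ w w' : Fin b → F, w ≠ 0 → sp w w = 0 → sp w' w' = 0 → sp w' w ≠ 0 →
      InM M (1 + G ⊗ₖ vecMulVec w (star w)) → InM M (1 + G ⊗ₖ vecMulVec w' (star w')) := by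
    intro u u' hu0 hu hu' huu hGu
    obtain ⟨d, hd0, hd⟩ := exists_skew H.ns
    have hμ : d * sp u' u ≠ 0 := mul_ne_zero hd0 huu
    have hm := H.lay_move hu hu' huu hd0 hd hGu
    have hu'0 : u' ≠ 0 := fun h => huu (by rw [h, sp_zero_left])
    have := H.lay_fixed hu'0 hu' hm (r := ((d * sp u' u) * star (d * sp u' u))⁻¹)
      (by rw [star_inv₀, star_mul', star_star, mul_comm])
    rwa [smul_smul, inv_mul_cancel₀ (mul_ne_zero hμ (star_ne_zero.2 hμ)), one_smul] at this
  intro w' hw'
  rcases eq_or_ne w' 0 with rfl | hw'0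
  · rw [star_zero, vecMulVec_zero, kronecker_zero, add_zero]; exact InM.one
  obtain ⟨u, huu, hwu, hw'u⟩ := exists_iso_not_perp₂ H.ns (by rw [Fintype.card_fin]; have := H.three; omega) hw0 hw'0
  have hu0 : u ≠ 0 := fun h => hwu (by rw [h, sp_zero_right])
  exact step u w' hu0 huu hw' hw'u (step w u hw0 hw huu (fun h => hwu (sp_zero_comm.1 h)) hG)

theorem Slotted.exists_iso : ∃ w : Fin b → F, w ≠ 0 ∧ sp w w = 0 := by
  obtain ⟨w, -, h1, h2⟩ := exists_iso_in H.ns (⊤ : Submodule F (Fin b → F)) (by simp; have := H.three; omega)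
  exact ⟨w, h1, h2⟩

theorem Slotted.inLay_add {G G' : Matrix α α F} (h : InLay M G) (h' : InLay M G') : InLay M (G + G') :=
  fun w hw => H.lay_mul hw (h w hw) (h' w hw)

theorem Slotted.inLay_sub {G G' : Matrix α α F} (h : InLay M G) (h' : InLay M G') : InLay M (G - G') := by
  rw [sub_eq_add_neg]
  exact fun w hw => H.lay_mul hw (h w hw) (H.lay_neg hw (h' w hw))

theorem Slotted.inLay_fixed {G : Matrix α α F} (h : InLay M G) {r : F} (hr : star r = r) : InLay M (r • G) := by
  obtain ⟨w, hw0, hw⟩ := H.exists_iso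
  exact H.inLay_of hw0 hw (H.lay_fixed hw0 hw (h w hw) hr)

/-- The identity from two layers with a common vector. -/
theorem Slotted.inLay_prod (h4 : 4 ≤ b) {G G' : Matrix α α F} (hG : InLay M G) (hG' : InLay M G') {τ : F} (hτ : τ ≠ 0) :
    InLay M (τ • (G * G') - star τ • (G' * G)) := by
  obtain ⟨w, hw0, hw⟩ := H.exists_iso
  obtain ⟨w', hw'w', h1, h2⟩ := partner H.ns hw0 hw
  obtain ⟨x, hx0, hxx, hxp⟩ := exists_iso_perp H.ns ![w, w'] (by rw [Fintype.card_fin]; omega)
  have hwx : sp w x = 0 := hxp 0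
  have hw'x : sp w' x = 0 := hxp 1
  obtain ⟨x₁, hx₁, hx₁w, hxx₁⟩ : ∃ x₁, sp x₁ x₁ = 0 ∧ sp w x₁ = 0 ∧ sp x x₁ = 1 := by
    obtain ⟨z, hzz, hxz, -⟩ := partner H.ns hx0 hxx
    set y := z - sp w' z • w - sp w z • w' with hy
    have hwy : sp w y = 0 := by
      rw [hy, sp_sub_right, sp_sub_right, sp_smul_right, sp_smul_right, hw, h1]; ring
    have hxy : sp x y = 1 := by
      rw [hy, sp_sub_right, sp_sub_right, sp_smul_right, sp_smul_right, sp_zero_comm.1 hwx, sp_zero_comm.1 hw'x, hxz]
      ring
    obtain ⟨t, ht⟩ := exists_trace H.ns (a := -(sp y y)) (by rw [star_neg, sp_star])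
    refine ⟨y + t • x, ?_, ?_, ?_⟩
    · rw [sp_add_left, sp_add_right, sp_add_right, sp_smul_left, sp_smul_left, sp_smul_right, sp_smul_right, hxx,
        hxy, ← sp_star x y, hxy, star_one]
      linear_combination ht
    · rw [sp_add_right, sp_smul_right, hwy, hwx]; ring
    · rw [sp_add_right, sp_smul_right, hxy, hxx]; ring
  set x' := τ • x₁ with hx'
  have hx'x' : sp x' x' = 0 := by rw [hx', sp_smul_left, sp_smul_right, hx₁]; ring
  have hwx' : sp w x' = 0 := by rw [hx', sp_smul_right, hx₁w, mul_zero]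
  have hxx' : sp x x' = τ := by rw [hx', sp_smul_right, hxx₁, mul_one]
  have hx'x : sp x' x = star τ := by rw [← sp_star, hxx']
  have hxw : sp x w = 0 := sp_zero_comm.1 hwx
  have hx'w : sp x' w = 0 := sp_zero_comm.1 hwx'
  have hL : ∀ (G : Matrix α α F) (x : Fin b → F), InLay M G → sp x x = 0 → sp w x = 0 →
      InM M (1 + G ⊗ₖ (vecMulVec w (star x) + vecMulVec x (star w))) := by
    intro G x hG hxx hwx
    have hxw : sp x w = 0 := sp_zero_comm.1 hwx
    have := ((hG (w + x) (by rw [sp_add_left, sp_add_right, sp_add_right, hw, hxx, hwx, hxw]; ring)).mul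
      (H.lay_neg hw (hG w hw))).mul (H.lay_neg hxx (hG x hxx))
    convert this using 1
    rw [show -G = (-1 : F) • G from (neg_one_smul F G).symm]
    simp only [vmv_add_left, vmv_add_right, kronecker_add, Matrix.mul_add, Matrix.add_mul, Matrix.one_mul,
      Matrix.mul_one, ← mul_kronecker_mul, vmv_mul, hw, hxx, hwx, hxw, zero_smul, kronecker_zero, add_zero,
      smul_kronecker, Matrix.smul_mul, Matrix.mul_smul, smul_zero, Matrix.zero_mul]
    module
  set A := G ⊗ₖ (vecMulVec w (star x) + vecMulVec x (star w)) with hA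
  set B := G' ⊗ₖ (vecMulVec w (star x') + vecMulVec x' (star w)) with hB
  have hA1 := hL G x hG hxx hwx
  have hB1 := hL G' x' hG' hx'x' hwx'
  rw [← hA] at hA1
  rw [← hB] at hB1
  have eAA : A * A = 0 := by
    rw [hA, ← mul_kronecker_mul]
    simp [Matrix.mul_add, Matrix.add_mul, vmv_mul, hw, hxx, hwx, hxw]
  have eBB : B * B = 0 := by
    rw [hB, ← mul_kronecker_mul]
    simp [Matrix.mul_add, Matrix.add_mul, vmv_mul, hw, hx'x', hwx', hx'w]
  have eAB : A * B = (τ • (G * G')) ⊗ₖ vecMulVec w (star w) := by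
    rw [hA, hB, ← mul_kronecker_mul]
    simp [Matrix.mul_add, Matrix.add_mul, vmv_mul, hw, hwx', hxw, hxx', kronecker_smul, smul_kronecker]
  have eBA : B * A = (star τ • (G' * G)) ⊗ₖ vecMulVec w (star w) := by
    rw [hA, hB, ← mul_kronecker_mul]
    simp [Matrix.mul_add, Matrix.add_mul, vmv_mul, hw, hwx, hx'w, hx'x, kronecker_smul, smul_kronecker]
  have eABA : A * B * A = 0 := by
    rw [eAB, hA, ← mul_kronecker_mul]
    simp [Matrix.mul_add, vmv_mul, hw, hwx]
  have eBAB : B * A * B = 0 := by
    rw [eBA, hB, ← mul_kronecker_mul]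
    simp [Matrix.mul_add, vmv_mul, hw, hwx']
  have hc := ((hA1.mul hB1).mul (hA1.neg eAA)).mul (hB1.neg eBB)
  have e : (1 + A) * (1 + B) * (1 - A) * (1 - B) - (1 + (A * B - B * A)) =
      -(A * A) - B * B + A * A * B - A * (B * B) - A * B * A + B * A * B + A * B * A * B := by
    noncomm_ring
  rw [eABA, eBAB, eAA, eBB] at e
  simp only [neg_zero, zero_mul, mul_zero, sub_zero, add_zero] at e
  rw [sub_eq_zero.1 e, eAB, eBA] at hc
  refine H.inLay_of hw0 hw ?_
  convert hc using 2
  ext p r
  simp only [kroneckerMap_apply, Matrix.sub_apply, sub_mul]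

/-- An element of the left factor moves the coefficients. -/
theorem Slotted.inLay_conj {g : Matrix α α F} (hg : InM M (g ⊗ₖ (1 : Matrix (Fin b) (Fin b) F))) {G : Matrix α α F}
    (h : InLay M G) : InLay M (g * G * gᴴ) := by
  intro w hw
  have := H.conj (h w hw) hg
  rwa [kron_conjTranspose, ← mul_kronecker_mul, ← mul_kronecker_mul, conjTranspose_one, Matrix.one_mul,
    Matrix.mul_one] at this

theorem Slotted.inLay_scalar {d : F} (hd : star d = -d) : InLay M (d • (1 : Matrix α α F)) :=
  fun _ hw => H.trans hw hd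

theorem Slotted.inLay_skew {G : Matrix α α F} (h : InLay M G) : Gᴴ = -G := by
  obtain ⟨w, hw0, hw⟩ := H.exists_iso
  exact H.lay_skew hw0 hw (h w hw)

/-- The coefficients are closed under the quadratic operation of an invertible one with its inverse. -/
theorem Slotted.inLay_quad {G H' G' : Matrix α α F} (hG : InLay M G) (hH : InLay M H') (hGH : G * H' = 1)
    (hG' : InLay M G') : InLay M (G * G' * G) := by
  obtain ⟨w, hw0, hw⟩ := H.exists_iso
  obtain ⟨w', hw', h1, h2⟩ := partner H.ns hw0 hw
  have hskew := H.inLay_skew hG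
  set E : Matrix Ix Ix F := G ⊗ₖ vecMulVec w (star w) with hE
  set E' : Matrix Ix Ix F := (-H') ⊗ₖ vecMulVec w' (star w') with hE'
  set T := (1 + E) * (1 + E') * (1 + E) with hT
  have hTm : InM M T := ((hG w hw).mul (H.lay_neg hw' (hH w' hw'))).mul (hG w hw)
  have e1 : E * lft α w' = lft α w * G := by rw [hE, kron_lft, vmv_mulVec, h1, one_smul]
  have e2 : E' * lft α w' = 0 := by rw [hE', kron_lft, vmv_mulVec, hw', zero_smul, lft_zero, Matrix.zero_mul]
  have e3 : E * lft α w = 0 := by rw [hE, kron_lft, vmv_mulVec, hw, zero_smul, lft_zero, Matrix.zero_mul]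
  have e4 : E' * lft α w = lft α w' * -H' := by rw [hE', kron_lft, vmv_mulVec, h2, one_smul]
  have eT : T * lft α w' = lft α w * G := by
    have f1 : (1 + E) * lft α w' = lft α w' + lft α w * G := by rw [Matrix.add_mul, Matrix.one_mul, e1]
    have f2 : (1 + E') * (lft α w' + lft α w * G) = lft α w * G := by
      rw [Matrix.add_mul, Matrix.one_mul, Matrix.mul_add, e2, ← Matrix.mul_assoc, e4, Matrix.mul_assoc,
        Matrix.neg_mul, mul_eq_one_comm.1 hGH, Matrix.mul_neg, Matrix.mul_one, zero_add]
      abel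
    have f3 : (1 + E) * (lft α w * G) = lft α w * G := by
      rw [Matrix.add_mul, Matrix.one_mul, ← Matrix.mul_assoc, e3, Matrix.zero_mul, add_zero]
    rw [hT, Matrix.mul_assoc _ (1 + E), f1, Matrix.mul_assoc, f2, f3]
  have h4 := H.conj (hG' w' hw') hTm
  have e5 : T * (G' ⊗ₖ vecMulVec w' (star w')) * Tᴴ = (-(G * G' * G)) ⊗ₖ vecMulVec w (star w) := by
    have eT' : rgt α (star w') * Tᴴ = Gᴴ * rgt α (star w) := by
      rw [← lft_conjTranspose, ← conjTranspose_mul, eT, conjTranspose_mul, lft_conjTranspose]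
    rw [← lft_mid_rgt, show T * (lft α w' * G' * rgt α (star w')) * Tᴴ = T * lft α w' * G' * (rgt α (star w') * Tᴴ) by
      simp only [Matrix.mul_assoc], eT, eT', hskew, ← lft_mid_rgt]
    simp only [Matrix.mul_assoc, Matrix.mul_neg, Matrix.neg_mul]
  rw [e5] at h4
  have h5 := H.lay_neg hw h4
  rw [neg_neg] at h5
  exact H.inLay_of hw0 hw h5

/-- The space spanned by the coefficients. -/
def env (M : Subgroup (GL (α × Fin b) F)) : Submodule F (Matrix α α F) := Submodule.span F {G | InLay M G}

omit H in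
theorem mem_env {G : Matrix α α F} (h : InLay M G) : G ∈ env M := Submodule.subset_span h

omit H in
theorem env_map (f : Matrix α α F →ₗ[F] Matrix α α F) (h : ∀ G, InLay M G → f G ∈ env M) {X : Matrix α α F}
    (hX : X ∈ env M) : f X ∈ env M :=
  (Submodule.span_le (p := (env M).comap f)).2 h hX

theorem Slotted.env_skew {X : Matrix α α F} (hX : X ∈ env M) (hs : Xᴴ = -X) : InLay M X := by
  obtain ⟨ξ, hξ⟩ := id H.ns
  have hξ' : star ξ - ξ ≠ 0 := sub_ne_zero.2 hξ
  have hzero : InLay M (0 : Matrix α α F) := fun w hw => by rw [zero_kronecker, add_zero]; exact InM.one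
  have key : ∀ c : F, ∃ r s : F, star r = r ∧ star s = s ∧ c = r + s * ξ := by
    intro c
    refine ⟨c - (star c - c) / (star ξ - ξ) * ξ, (star c - c) / (star ξ - ξ), ?_, ?_, by ring⟩
    · have : star ((star c - c) / (star ξ - ξ)) = (star c - c) / (star ξ - ξ) := by
        rw [star_div₀, star_sub, star_sub, star_star, star_star, ← neg_sub (star c), ← neg_sub (star ξ), neg_div_neg_eq]
      rw [star_sub, star_mul', this]
      linear_combination -(div_mul_cancel₀ (star c - c) hξ')
    · rw [star_div₀, star_sub, star_sub, star_star, star_star, ← neg_sub (star c), ← neg_sub (star ξ), neg_div_neg_eq]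
  obtain ⟨G₁, G₂, h1, h2, rfl⟩ : ∃ G₁ G₂, InLay M G₁ ∧ InLay M G₂ ∧ X = G₁ + ξ • G₂ := by
    clear hs
    induction hX using Submodule.span_induction with
    | mem G hG => exact ⟨G, 0, hG, hzero, by rw [smul_zero, add_zero]⟩
    | zero => exact ⟨0, 0, hzero, hzero, by rw [smul_zero, add_zero]⟩
    | add A B _ _ hA hB =>
      obtain ⟨A₁, A₂, a1, a2, rfl⟩ := hA
      obtain ⟨B₁, B₂, b1, b2, rfl⟩ := hB
      exact ⟨A₁ + B₁, A₂ + B₂, H.inLay_add a1 b1, H.inLay_add a2 b2, by rw [smul_add]; abel⟩
    | smul c A _ hA =>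
      obtain ⟨A₁, A₂, a1, a2, rfl⟩ := hA
      obtain ⟨r, s, hr, hs', rfl⟩ := key c
      obtain ⟨r₂, s₂, hr₂, hs₂, e2⟩ := key (ξ * ξ)
      refine ⟨r • A₁ + (s * r₂) • A₂, s • A₁ + (r + s * s₂) • A₂,
        H.inLay_add (H.inLay_fixed a1 hr) (H.inLay_fixed a2 (by rw [star_mul', hs', hr₂])),
        H.inLay_add (H.inLay_fixed a1 hs') (H.inLay_fixed a2 (by rw [star_add, star_mul', hr, hs', hs₂])), ?_⟩
      match_scalars
      · ring
      · linear_combination s * e2
  rw [conjTranspose_add, conjTranspose_smul, H.inLay_skew h1, H.inLay_skew h2, neg_add, smul_neg, add_right_inj,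
    neg_inj, ← sub_eq_zero, ← sub_smul, smul_eq_zero, or_iff_right hξ'] at hs
  rwa [hs, smul_zero, add_zero]

theorem Slotted.env_one : (1 : Matrix α α F) ∈ env M := by
  obtain ⟨d, hd0, hd⟩ := exists_skew H.ns
  have := (env M).smul_mem d⁻¹ (mem_env (H.inLay_scalar hd))
  rwa [smul_smul, inv_mul_cancel₀ hd0, one_smul] at this

theorem Slotted.env_conj {g : Matrix α α F} (hg : InM M (g ⊗ₖ (1 : Matrix (Fin b) (Fin b) F))) {X : Matrix α α F}
    (hX : X ∈ env M) : g * X * gᴴ ∈ env M :=
  env_map ((LinearMap.mulRight F gᴴ).comp (LinearMap.mulLeft F g)) (fun _ hG => mem_env (H.inLay_conj hg hG)) hX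

theorem Slotted.env_quad {G H' : Matrix α α F} (hs : Gᴴ = -G) (hGH : G * H' = 1) (hG : G ∈ env M)
    (hH : H' ∈ env M) {X : Matrix α α F} (hX : X ∈ env M) : G * X * G ∈ env M := by
  have hs' : H'ᴴ = -H' := by
    have e := congrArg Matrix.conjTranspose hGH
    rw [conjTranspose_mul, conjTranspose_one, hs, Matrix.mul_neg] at e
    have e2 := congrArg (· * H') e
    simp only [Matrix.neg_mul, Matrix.one_mul, Matrix.mul_assoc, hGH, Matrix.mul_one] at e2
    exact neg_eq_iff_eq_neg.1 e2
  exact env_map ((LinearMap.mulRight F G).comp (LinearMap.mulLeft F G))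
    (fun G' hG' => mem_env (H.inLay_quad (H.env_skew hG hs) (H.env_skew hH hs') hGH hG')) hX

theorem Slotted.env_mul (h4 : 4 ≤ b) {X Y : Matrix α α F} (hX : X ∈ env M) (hY : Y ∈ env M) :
    X * Y ∈ env M := by
  have key : ∀ G G', InLay M G → InLay M G' → G * G' ∈ env M := by
    intro G G' hG hG'
    obtain ⟨ξ, hξ⟩ := id H.ns
    have hξ0 : ξ ≠ 0 := fun e => hξ (by rw [e, star_zero])
    have h := (env M).sub_mem (mem_env (H.inLay_prod h4 hG hG' hξ0))
      ((env M).smul_mem (star ξ) (mem_env (H.inLay_prod h4 hG hG' one_ne_zero)))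
    rw [star_one, one_smul, one_smul, show ξ • (G * G') - star ξ • (G' * G) - star ξ • (G * G' - G' * G) =
      (ξ - star ξ) • (G * G') by module] at h
    have := (env M).smul_mem (ξ - star ξ)⁻¹ h
    rwa [smul_smul, inv_mul_cancel₀ (sub_ne_zero.2 (Ne.symm hξ)), one_smul] at this
  exact env_map (LinearMap.mulRight F Y)
    (fun G hG => env_map (LinearMap.mulLeft F G) (fun G' hG' => key G G' hG hG') hY) hX


theorem Slotted.centre_mulVec {v : Ix → F} (hv : H99.TensorU.Centre M v) {Y : Matrix Ix Ix F} (hY : InM M Y) :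
    H99.TensorU.Centre M (Y *ᵥ v) := fun d hd => by
  have := H.conj (hv d hd) hY
  rwa [Matrix.mul_smul, Matrix.smul_mul, vmv_conj] at this

theorem Slotted.centre_pv (hlay : ∀ G : Matrix α α F, Gᴴ = -G → InLay M G) (x : α → F) {w : Fin b → F}
    (hw : sp w w = 0) : H99.TensorU.Centre M (pv x w) := fun d hd => by
  have := hlay (d • vecMulVec x (star x)) (by rw [conjTranspose_smul, vmv_conjTranspose, hd, neg_smul]) w hw
  rwa [smul_kronecker, kron_vmv] at this

/-- Layers with all skew coefficients give all transvections. -/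
theorem Slotted.centre_all (hlay : ∀ G : Matrix α α F, Gᴴ = -G → InLay M G)
    (hα : 2 ≤ Fintype.card α) (v : Ix → F) (hv : sp v v = 0) : H99.TensorU.Centre M v := by
  classical
  let lay : (Ix → F) → α → Fin b → F := fun v i k => v (i, k)
  let supp : (Ix → F) → Finset α := fun v => Finset.univ.filter fun i => lay v i ≠ 0
  obtain ⟨d, hd0, hd⟩ := exists_skew H.ns
  -- the basic move
  have move : ∀ (v : Ix → F) (i j : α) (w : Fin b → F) (μ : F), sp v v = 0 → i ≠ j → sp w w = 0 →
      sp w (lay v j) ≠ 0 → ∃ v' : Ix → F, sp v' v' = 0 ∧ (H99.TensorU.Centre M v' → H99.TensorU.Centre M v) ∧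
        lay v' i = lay v i + μ • w ∧ ∀ l, l ≠ i → l ≠ j → lay v' l = lay v l := by
    intro v i j w μ hv hij hw hj
    have hd' : d ≠ 0 := hd0
    set l₀ := star ((μ / d - sp w (lay v i)) / sp w (lay v j)) with hl₀
    set x : α → F := Pi.single i 1 + l₀ • Pi.single j 1 with hx
    have hxv : d * sp (pv x w) v = μ := by
      rw [sp_pv_left, Finset.sum_eq_add i j hij
        (fun l _ hl => by simp [hx, Pi.single_eq_of_ne hl.1, Pi.single_eq_of_ne hl.2]) (by simp) (by simp)]
      simp only [hx, Pi.add_apply, Pi.smul_apply, Pi.single_eq_same, Pi.single_eq_of_ne hij,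
        Pi.single_eq_of_ne hij.symm, smul_eq_mul, mul_zero, mul_one, add_zero, zero_add, star_one, one_mul, hl₀,
        star_star]
      change d * (sp w (lay v i) + (μ / d - sp w (lay v i)) / sp w (lay v j) * sp w (lay v j)) = μ
      rw [div_mul_cancel₀ _ hj]
      field_simp
      ring
    have hT := H.centre_pv hlay x hw d hd
    set T := 1 + d • vecMulVec (pv x w) (star (pv x w)) with hTdef
    have hTv : T *ᵥ v = v + μ • pv x w := by
      rw [hTdef, add_mulVec, one_mulVec, smul_mulVec, vmv_mulVec, smul_smul, hxv]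
    refine ⟨T *ᵥ v, ?_, fun hc => ?_, ?_, fun l hli hlj => ?_⟩
    · have : sp (T *ᵥ v) (T *ᵥ v) = sp v ((Tᴴ * T) *ᵥ v) := by
        rw [sp, sp, star_mulVec, ← dotProduct_mulVec, mulVec_mulVec]
      rw [this, H.unit' hT, one_mulVec, hv]
    · have := H.centre_mulVec hc (H.inv hT)
      rwa [mulVec_mulVec, H.unit' hT, one_mulVec] at this
    · funext k
      change (T *ᵥ v) (i, k) = v (i, k) + μ * w k
      rw [hTv]
      simp [pv, hx, Pi.single_eq_of_ne hij]
    · funext k
      change (T *ᵥ v) (l, k) = v (l, k)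
      rw [hTv]
      simp [pv, hx, Pi.single_eq_of_ne hli, Pi.single_eq_of_ne hlj]
  suffices h : ∀ n v, sp v v = 0 → (supp v).card = n → H99.TensorU.Centre M v from h _ v hv rfl
  intro n
  induction n using Nat.strong_induction_on with
  | _ n ih =>
    intro v hv hn
    rcases Nat.lt_or_ge n 2 with hn1 | hn2
    · -- a single component
      rcases isEmpty_or_nonempty α with he | ⟨⟨i0⟩⟩
      · exact absurd hα (by rw [Fintype.card_eq_zero]; omega)
      obtain ⟨i, hi⟩ : ∃ i, ∀ l, l ≠ i → lay v l = 0 := by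
        rcases Nat.eq_zero_or_pos n with h0 | h0
        · refine ⟨i0, fun l _ => ?_⟩
          by_contra hl
          have : l ∈ supp v := Finset.mem_filter.2 ⟨Finset.mem_univ _, hl⟩
          rw [Finset.card_eq_zero.1 (hn.trans h0)] at this
          simp at this
        · obtain ⟨i, hi⟩ := Finset.card_eq_one.1 (show (supp v).card = 1 by omega)
          refine ⟨i, fun l hl => ?_⟩
          by_contra h
          have : l ∈ supp v := Finset.mem_filter.2 ⟨Finset.mem_univ _, h⟩
          rw [hi, Finset.mem_singleton] at this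
          exact hl this
      have hiso : sp (lay v i) (lay v i) = 0 := by
        rw [sp_layers, Finset.sum_eq_single i (fun l _ hl => by
          change sp (lay v l) (lay v l) = 0
          rw [hi l hl, sp_zero_left]) (by simp)] at hv
        exact hv
      have e : v = pv (Pi.single i 1) (lay v i) := by
        funext ⟨l, k⟩
        by_cases hl : l = i
        · subst hl; simp [pv, lay]
        · have := congrFun (hi l hl) k
          simp [pv, Pi.single_eq_of_ne hl, lay] at this ⊢
          exact this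
      rw [e]
      exact H.centre_pv hlay _ hiso
    -- decreasing the support
    have hdec : ∀ v' : Ix → F, supp v' ⊂ supp v → sp v' v' = 0 → H99.TensorU.Centre M v' := fun v' hs hv' =>
      ih _ (hn ▸ Finset.card_lt_card hs) v' hv' rfl
    have kill : ∀ v : Ix → F, (∀ v' : Ix → F, supp v' ⊂ supp v → sp v' v' = 0 → H99.TensorU.Centre M v') → ∀ i j : α, i ≠ j →
        sp v v = 0 → i ∈ supp v → j ∈ supp v → sp (lay v i) (lay v i) = 0 →
        sp (lay v i) (lay v j) ≠ 0 → H99.TensorU.Centre M v := by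
      intro v hdec i j hij hv hi hj hii hwj
      obtain ⟨v', hv', hback, hi', hrest⟩ := move v i j (lay v i) (-1) hv hij hii hwj
      refine hback (hdec v' (Finset.ssubset_iff_of_subset (fun l hl => ?_) |>.2 ⟨i, hi, fun h => ?_⟩) hv')
      · by_cases hli : l = i
        · rwa [hli]
        by_cases hlj : l = j
        · rwa [hlj]
        simp only [supp, Finset.mem_filter, hrest l hli hlj] at hl ⊢
        exact hl
      · simp [supp, hi'] at h
    have main : ∀ v : Ix → F, (∀ v' : Ix → F, supp v' ⊂ supp v → sp v' v' = 0 → H99.TensorU.Centre M v') → ∀ i j : α, i ≠ j →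
        sp v v = 0 → i ∈ supp v → j ∈ supp v → sp (lay v i) (lay v i) = 0 → H99.TensorU.Centre M v := by
      intro v hdec i j hij hv hi hj hii
      by_cases hwj : sp (lay v i) (lay v j) = 0
      swap
      · exact kill v hdec i j hij hv hi hj hii hwj
      obtain ⟨w, hww, hiw, hjw⟩ := exists_iso_not_perp₂ H.ns (by rw [Fintype.card_fin]; have := H.three; omega)
        (Finset.mem_filter.1 hi).2 (Finset.mem_filter.1 hj).2
      have hT := H.centre_pv hlay (Pi.single j 1) hww d hd
      set T := 1 + d • vecMulVec (pv (Pi.single j 1) w) (star (pv (Pi.single j 1) w)) with hTdef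
      have hTv : T *ᵥ v = v + (d * sp w (lay v j)) • pv (Pi.single j 1) w := by
        rw [hTdef, add_mulVec, one_mulVec, smul_mulVec, vmv_mulVec, smul_smul, sp_pv_left,
          Finset.sum_eq_single j (fun l _ hl => by simp [Pi.single_eq_of_ne hl]) (by simp)]
        simp [lay]
      set v' := T *ᵥ v with hv'def
      have hli : lay v' i = lay v i := by
        funext k
        change (T *ᵥ v) (i, k) = v (i, k)
        rw [← hv'def, hTv]
        simp [pv, Pi.single_eq_of_ne hij]
      have hlj : lay v' j = lay v j + (d * sp w (lay v j)) • w := by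
        funext k
        change v' (j, k) = v (j, k) + (d * sp w (lay v j)) * w k
        rw [hTv]
        simp [pv]
      have hne : sp (lay v' i) (lay v' j) ≠ 0 := by
        rw [hli, hlj, sp_add_right, sp_smul_right, hwj, zero_add]
        exact mul_ne_zero (mul_ne_zero hd0 fun h => hjw (sp_zero_comm.1 h)) hiw
      have hsupp : supp v' = supp v := by
        ext l
        simp only [supp, Finset.mem_filter, Finset.mem_univ, true_and]
        by_cases hlj' : l = j
        · subst hlj'
          exact iff_of_true (fun h => hne (by rw [h, sp_zero_right])) (Finset.mem_filter.1 hj).2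
        · have : lay v' l = lay v l := by
            funext k
            change v' (l, k) = v (l, k)
            rw [hTv]
            simp [pv, Pi.single_eq_of_ne hlj']
          rw [this]
      have hiso : sp v' v' = 0 := by
        have : sp (T *ᵥ v) (T *ᵥ v) = sp v ((Tᴴ * T) *ᵥ v) := by
          rw [sp, sp, star_mulVec, ← dotProduct_mulVec, mulVec_mulVec]
        rw [hv'def, this, H.unit' hT, one_mulVec, hv]
      have hc := kill v' (fun v'' hs => hdec v'' (hsupp ▸ hs)) i j hij hiso (hsupp ▸ hi) (hsupp ▸ hj)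
        (hli.symm ▸ hii) hne
      have := H.centre_mulVec hc (H.inv hT)
      rwa [hv'def, mulVec_mulVec, H.unit' hT, one_mulVec] at this
    obtain ⟨i, hi, j, hj, hij⟩ := Finset.one_lt_card.1 (show 1 < (supp v).card by omega)
    by_cases hii : sp (lay v i) (lay v i) = 0
    · exact main v hdec i j hij hv hi hj hii
    obtain ⟨w, hww, hiw, hjw⟩ := exists_iso_not_perp₂ H.ns (by rw [Fintype.card_fin]; have := H.three; omega)
      (Finset.mem_filter.1 hi).2 (Finset.mem_filter.1 hj).2
    obtain ⟨s, hs⟩ := exists_trace H.ns (a := -(sp (lay v i) (lay v i))) (by rw [star_neg, sp_star])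
    obtain ⟨v', hv', hback, hi', hrest⟩ := move v i j w (s / sp (lay v i) w) hv hij hww
      (fun h => hjw (sp_zero_comm.1 h))
    refine hback ?_
    have hii' : sp (lay v' i) (lay v' i) = 0 := by
      rw [hi', sp_add_left, sp_add_right, sp_add_right, sp_smul_left, sp_smul_left, sp_smul_right, sp_smul_right, hww]
      have h1 : s / sp (lay v i) w * sp (lay v i) w = s := div_mul_cancel₀ _ hiw
      have h2 : star (s / sp (lay v i) w) * sp w (lay v i) = star s := by rw [← sp_star (lay v i) w, ← star_mul', h1]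
      linear_combination hs + h1 + h2
    have hsub : supp v' ⊆ supp v := fun l hl => by
      by_cases hli : l = i
      · rwa [hli]
      by_cases hlj : l = j
      · rwa [hlj]
      simp only [supp, Finset.mem_filter, hrest l hli hlj] at hl ⊢
      exact hl
    by_cases heq : supp v' = supp v
    · exact main v' (fun v'' hs' => hdec v'' (heq ▸ hs')) i j hij hv' (heq ▸ hi) (heq ▸ hj) hii'
    · exact hdec v' (hsub.ssubset_of_ne heq) hv'

end Cfsg.Agent.H66.TensorWreathSU
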