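import Cfsg.Agent.H66.TensorWreathSU.Span
import Cfsg.Agent.H66.TensorWreathSU.Layers

/-!
A factor with a layer that is not scalar: all transvections at isotropic vectors.
-/

set_option autoImplicit false
set_option linter.unusedSectionVars false

namespace Cfsg.Agent.H66.TensorWreathSU

open Matrix
open Cfsg.Agent.H99.Tensor
open Cfsg.Agent.H99.TensorU (sp InLay kron_conjTranspose)
open Cfsg.Agent.H5.C7 (wm sl rI eI slotM)
open Cfsg.Agent.H58.Wreath.SU (Amb Good Centre InG rI_conjTranspose)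
open scoped Kronecker

variable {F : Type*} [Field F] [StarRing F] {ι : Type} [Fintype ι] [DecidableEq ι] {m : ℕ}

local notation "MM" => Matrix (ι → Fin m) (ι → Fin m) F
local notation "mm" => Matrix (Fin m) (Fin m) F

theorem wm_perm_star (π : Equiv.Perm ι) : (wm π (fun _ => 1) : MM)ᴴ = wm π⁻¹ fun _ => 1 := by
  ext f g
  rw [conjTranspose_apply, H5.C7.wm_apply, H5.C7.wm_apply, star_prod, ← Equiv.prod_comp π⁻¹]
  refine Finset.prod_congr rfl fun j _ => ?_
  simp only [Equiv.Perm.coe_inv, Equiv.apply_symm_apply, Matrix.one_apply]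
  split_ifs with h h' h' <;> simp_all

variable {M : Subgroup (GL (ι → Fin m) F)}

theorem slotted (A : Amb M) (i : ι) : Slotted (slotM i M) where
  iso := fun y hy => by
    obtain ⟨x, hx, e⟩ := H5.C7.inM_slotM.1 (⟨y, hy, rfl⟩ : InM (slotM i M) (y : Matrix _ _ F))
    rw [← e, ← rI_conjTranspose, ← map_mul, A.iso x hx, map_one]
  right := fun k hk hd => by
    obtain ⟨y, hy, e⟩ := A.slot i k hk hd
    exact H5.C7.inM_slotM.2 ⟨y, hy, by rw [e, H5.C7.rI_sl_self]⟩
  three := A.three
  ns := A.ns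

theorem left_slot (A : Amb M) {i : ι} (l : {j : ι // j ≠ i}) {h : mm} (hh : h * hᴴ = 1) (hd : h.det = 1) :
    InM (slotM i M) ((sl l h) ⊗ₖ (1 : mm)) := by
  obtain ⟨y, hy, e⟩ := A.slot l.1 h hh hd
  exact H5.C7.inM_slotM.2 ⟨y, hy, by rw [e, H5.C7.rI_sl_ne]⟩

theorem left_perm (A : Amb M) (h3 : 3 ≤ Fintype.card ι) (hm : 0 < m) {i : ι} (s l : {j : ι // j ≠ i}) :
    ∃ c : F, c ≠ 0 ∧ InM (slotM i M) ((c • (wm (Equiv.swap s l) fun _ => 1)) ⊗ₖ (1 : mm)) := by
  set σ : Equiv.Perm ι := Equiv.swap s.1 l.1 with hσ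
  have hσi : σ i = i := Equiv.swap_apply_of_ne_of_ne s.2.symm l.2.symm
  obtain ⟨c, y, hy, e⟩ := A.perm h3 σ
  refine ⟨c, fun hc => ?_, H5.C7.inM_slotM.2 ⟨y, hy, ?_⟩⟩
  · have e0 : (y : MM) = 0 := by rw [e, hc, zero_smul]
    have := congrArg (· * ((y⁻¹ : GL (ι → Fin m) F) : MM)) e0
    simp only [Units.mul_inv, Matrix.zero_mul] at this
    simpa using congrFun (congrFun this fun _ => ⟨0, hm⟩) fun _ => ⟨0, hm⟩
  · rw [e, map_smul, H5.C7.rI_wm i σ hσi (H5.C7.perm_ne_iff hσi), smul_kronecker]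
    congr 3
    refine Equiv.ext fun j => Subtype.ext ?_
    rw [Equiv.Perm.subtypePerm_apply]
    simp only [hσ, Equiv.swap_apply_def, Subtype.ext_iff]
    split_ifs <;> rfl

theorem env_spread [Finite F] (A : Amb M) {i : ι} (s l : {j : ι // j ≠ i})
    (hs : ∀ X : mm, sl s X ∈ env (slotM i M)) (X : mm) : sl l X ∈ env (slotM i M) := by
  classical
  by_cases hsl : l = s
  · rw [hsl]; exact hs X
  have hm : 0 < m := by have := A.three; omega
  have h3 : 3 ≤ Fintype.card ι := by
    have : ({i, s.1, l.1} : Finset ι).card = 3 := by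
      rw [Finset.card_insert_of_notMem (by simp [s.2.symm, l.2.symm]),
        Finset.card_pair (fun e => hsl (Subtype.ext e.symm))]
    rw [← this]
    exact Finset.card_le_univ _
  obtain ⟨c, hc, hg⟩ := left_perm A h3 hm s l
  have := (slotted A i).env_conj hg (hs X)
  have e : (wm (Equiv.swap s l) (fun _ => 1) : Matrix ({j : ι // j ≠ i} → Fin m) _ F) * sl s X *
      (wm (Equiv.swap s l) (fun _ => 1) : Matrix ({j : ι // j ≠ i} → Fin m) _ F)ᴴ = sl l X := by
    rw [wm_perm_star, sl, H5.C7.wm_mul, H5.C7.wm_mul, one_mul, inv_mul_cancel, sl]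
    congr 1
    funext j
    rw [one_mul, mul_one]
    by_cases hj : j = l
    · subst hj; rw [Equiv.swap_apply_right, Function.update_self, Function.update_self]
    · rw [Function.update_of_ne hj, Function.update_of_ne]
      intro e
      exact hj (by rw [← Equiv.swap_apply_self s l j, e, Equiv.swap_apply_left])
  rw [conjTranspose_smul, Matrix.smul_mul, Matrix.mul_smul, Matrix.smul_mul, smul_smul, e] at this
  have h := (env (slotM i M)).smul_mem (star c * c)⁻¹ this
  rwa [smul_smul, inv_mul_cancel₀ (mul_ne_zero (star_ne_zero.2 hc) hc), one_smul] at h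

theorem env_cl [Finite F] (A : Amb M) (i : ι) :
    Cl (env (slotM i M) : Submodule F (Matrix ({j : ι // j ≠ i} → Fin m) ({j : ι // j ≠ i} → Fin m) F)) where
  ns := A.ns
  three := A.three
  one := (slotted A i).env_one
  conj := fun l h hh hd X hX => by
    have := (slotted A i).env_conj (left_slot A l hh hd) hX
    rwa [sl_conjTranspose] at this
  quad := fun G H' hs hGH hG hH X hX => (slotted A i).env_quad hs hGH hG hH hX
  mul := fun h4 X hX Y hY => (slotted A i).env_mul h4 hX hY
  spread := fun s l hs => env_spread A s l hs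

theorem rI_vmv (i : ι) (v : (ι → Fin m) → F) :
    rI i (vecMulVec v (star v)) = vecMulVec (v ∘ (eI i).symm) (star (v ∘ (eI i).symm)) := by
  ext p q
  rfl

theorem sp_reindex (i : ι) (v : (ι → Fin m) → F) : sp (v ∘ (eI (m := m) i).symm) (v ∘ (eI (m := m) i).symm) = sp v v :=
  Equiv.sum_comp (eI i).symm fun f => star (v f) * v f

/-- All coefficients occur in the layers of a factor with a layer that is not scalar. -/
theorem inLay_of_bad [Finite F] (A : Amb M) {i : ι} (hbad : ¬ H58.Wreath.SU.Good M i)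
    (G : Matrix ({j : ι // j ≠ i} → Fin m) ({j : ι // j ≠ i} → Fin m) F) (hG : Gᴴ = -G) : InLay (slotM i M) G := by
  simp only [H58.Wreath.SU.Good, H99.TensorU.Good, not_forall] at hbad
  obtain ⟨w, G₀, hw0, hw, hG₀, hns⟩ := hbad
  push Not at hns
  have htop := (env_cl A i).eq_top (mem_env ((slotted A i).inLay_of hw0 hw hG₀)) hns
  exact (slotted A i).env_skew (htop ▸ Submodule.mem_top) hG

end Cfsg.Agent.H66.TensorWreathSU

namespace Cfsg.Agent.H58.Wreath.SU

open Matrix
open Cfsg.Agent.H99.TensorU (sp)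
open Cfsg.Agent.H66.TensorWreathSU (slotted inLay_of_bad rI_vmv sp_reindex)
open Cfsg.Agent.H5.C7 (rI eI)

/-- A factor with a layer that is not scalar gives all transvections. -/
theorem Amb.centre_of_bad {F : Type*} [Field F] [StarRing F] [Finite F] {ι : Type} [Fintype ι] [DecidableEq ι] {m : ℕ}
    {M : Subgroup (GL (ι → Fin m) F)} (A : Amb M) {i : ι} (hbad : ¬ H58.Wreath.SU.Good M i) (v : (ι → Fin m) → F)
    (hv : sp v v = 0) : Centre M v := by
  intro d hd
  have hcard : 2 ≤ Fintype.card ({j : ι // j ≠ i} → Fin m) := by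
    have h3 := A.three
    have h2 := A.two
    have hm : m ≤ m ^ (Fintype.card ι - 1) := Nat.le_self_pow (by omega) m
    rw [H5.C7.card_others]
    omega
  have := (slotted A i).centre_all (inLay_of_bad A hbad) hcard (v ∘ (eI i).symm) ((sp_reindex i v).trans hv) d hd
  obtain ⟨y, hy, e⟩ := H5.C7.inM_slotM.1 this
  refine ⟨y, hy, (rI i).injective ?_⟩
  rw [e, map_add, map_one, map_smul, rI_vmv]

end Cfsg.Agent.H58.Wreath.SU
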