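import Cfsg.Agent.H5.C7.MonoBad
import Cfsg.Agent.H99.TensorU.Layer

/-!
A space of matrices of a tensor power that is stable under the special unitary groups of the factors and under the
two quadratic operations of a layer: it is everything as soon as it has an element that is not scalar.
-/

set_option autoImplicit false
set_option linter.unusedSectionVars false

namespace Cfsg.Agent.H66.TensorWreathSU

open Matrix
open Cfsg.Agent.H99.Tensor
open Cfsg.Agent.H99.TensorU (sp sp_star sp_zero_comm sp_smul_left sp_smul_right sp_add_left sp_add_right sp_zero_left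
  sp_zero_right nil vmv_mul vmv_mulVec vmv_conj vmv_conjTranspose vmv_add_left vmv_add_right vmv_smul_left
  vmv_smul_right trans_unitary root_unitary exists_move exists_skew exists_trace exists_iso_in exists_iso_not_perp₂
  partner skew_scalar_of_iso finrank_perp hform_unitary)
open Cfsg.Agent.H5.C7 (wm sl rI Fac)
open scoped Kronecker

variable {F : Type*} [Field F] [StarRing F]

section One

variable {m : ℕ}

local notation "mm" => Matrix (Fin m) (Fin m) F

/-- The rank one matrix of a non-zero isotropic vector. -/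
def IsI (A : Matrix (Fin m) (Fin m) F) : Prop :=
  ∃ v : Fin m → F, v ≠ 0 ∧ sp v v = 0 ∧ A = vecMulVec v (star v)

theorem IsI.sq {A : mm} (h : IsI A) : A * A = 0 := by
  obtain ⟨v, -, hv, rfl⟩ := h
  rw [vmv_mul, hv, zero_smul]

theorem IsI.herm {A : mm} (h : IsI A) : Aᴴ = A := by
  obtain ⟨v, -, -, rfl⟩ := h
  exact vmv_conjTranspose v v

theorem IsI.ne {A : mm} (h : IsI A) : A ≠ 0 := by
  obtain ⟨v, hv0, -, rfl⟩ := h
  intro e
  obtain ⟨j, hj⟩ := Function.ne_iff.1 hv0
  have := congrFun (congrFun e j) j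
  simp [vecMulVec_apply] at this
  exact hj this

theorem IsI.trace {A : mm} (h : IsI A) : A.trace = 0 := by
  obtain ⟨v, -, hv, rfl⟩ := h
  rw [trace_vecMulVec, dotProduct_comm]
  exact hv

theorem IsI.sandwich {A : mm} (h : IsI A) (X : mm) : (A * X * A).trace = 0 := by
  rw [Matrix.trace_mul_cycle, h.sq, Matrix.zero_mul, Matrix.trace_zero]

theorem vmv_sandwich (v : Fin m → F) (X : mm) :
    vecMulVec v (star v) * X * vecMulVec v (star v) = sp v (X *ᵥ v) • vecMulVec v (star v) := by
  rw [Matrix.mul_assoc, Matrix.mul_vecMulVec, vmv_mul]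

variable [Finite F] (hns : ∃ x : F, star x ≠ x)
include hns

/-- A matrix without skew part at the isotropic vectors is scalar. -/
theorem scalar_of_iso {X : mm} (h : ∀ v : Fin m → F, sp v v = 0 → sp v (X *ᵥ v) = 0) :
    ∃ c : F, X = c • (1 : mm) := by
  obtain ⟨ξ, hξ⟩ := id hns
  have hξ' : ξ - star ξ ≠ 0 := sub_ne_zero.2 (Ne.symm hξ)
  have hh : ∀ v : Fin m → F, sp v v = 0 → sp v (Xᴴ *ᵥ v) = 0 := fun v hv => by
    have e : sp v (Xᴴ *ᵥ v) = sp (X *ᵥ v) v := by
      rw [sp, sp, star_mulVec, ← dotProduct_mulVec]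
    rw [e, ← sp_star v (X *ᵥ v), h v hv, star_zero]
  set T := (ξ - star ξ)⁻¹ • (X + Xᴴ) with hT
  have hT' : Tᴴ = -T := by
    rw [hT, conjTranspose_smul, conjTranspose_add, conjTranspose_conjTranspose, star_inv₀, star_sub, star_star,
      ← neg_sub ξ (star ξ), inv_neg, neg_smul, add_comm Xᴴ X]
  obtain ⟨c₂, h₂⟩ := skew_scalar_of_iso hns hT' fun v hv => by
    rw [hT, smul_mulVec, add_mulVec, sp_smul_right, sp_add_right, h v hv, hh v hv]; ring
  have hU : (X - ξ • T)ᴴ = -(X - ξ • T) := by
    have e : (ξ - star ξ) • T = X + Xᴴ := by rw [hT, smul_smul, mul_inv_cancel₀ hξ', one_smul]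
    rw [sub_smul] at e
    rw [conjTranspose_sub, conjTranspose_smul, hT', eq_sub_of_add_eq' e.symm]
    module
  obtain ⟨c₁, h₁⟩ := skew_scalar_of_iso hns hU fun v hv => by
    rw [hT, sub_mulVec, smul_smul, smul_mulVec, add_mulVec, sub_eq_add_neg, ← neg_smul, sp_add_right, sp_smul_right,
      sp_add_right, h v hv, hh v hv]
    ring
  exact ⟨c₁ + ξ * c₂, by rw [add_smul, mul_smul, ← h₁, ← h₂, sub_add_cancel]⟩

/-- The matrices of trace zero are spanned by those of the isotropic vectors. -/
theorem mem_span_isI {X : mm} (hX : X.trace = 0) : X ∈ Submodule.span F {A : mm | IsI A} := by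
  by_contra hc
  obtain ⟨f, hfX, hf⟩ := Submodule.exists_dual_map_eq_bot_of_notMem hc inferInstance
  set T : mm := Matrix.of fun b a => f (Matrix.single a b 1) with hT
  have hfe : ∀ Y : mm, f Y = (T * Y).trace := fun Y => by
    conv_lhs => rw [Matrix.matrix_eq_sum_single Y]
    simp only [map_sum, Matrix.trace, Matrix.diag_apply, Matrix.mul_apply, hT, Matrix.of_apply]
    rw [Finset.sum_comm]
    refine Finset.sum_congr rfl fun b _ => Finset.sum_congr rfl fun a _ => ?_
    rw [mul_comm, ← smul_eq_mul, ← map_smul, Matrix.smul_single, smul_eq_mul, mul_one]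
  obtain ⟨c, hc'⟩ := scalar_of_iso hns (X := T) fun v hv => by
    rcases eq_or_ne v 0 with rfl | hv0
    · exact sp_zero_left _
    have h0 : f (vecMulVec v (star v)) = 0 := by
      have := Submodule.mem_map_of_mem (f := f) (Submodule.subset_span (show vecMulVec v (star v) ∈ {A : mm | IsI A}
        from ⟨v, hv0, hv, rfl⟩))
      rw [hf, Submodule.mem_bot] at this
      exact this
    rw [hfe, Matrix.mul_vecMulVec, trace_vecMulVec, dotProduct_comm] at h0
    exact h0
  refine hfX ?_
  rw [hfe, hc', Matrix.smul_mul, Matrix.one_mul, trace_smul, hX, smul_zero]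

/-- The special unitary group is transitive on the isotropic lines. -/
theorem exists_move_isI (hm : 2 ≤ m) {A B : mm} (hA : IsI A) (hB : IsI B) :
    ∃ (μ : F) (h : mm), μ ≠ 0 ∧ h * hᴴ = 1 ∧ h.det = 1 ∧ h * A * hᴴ = μ • B := by
  obtain ⟨u, hu0, hu, rfl⟩ := hA
  obtain ⟨v, hv0, hv, rfl⟩ := hB
  obtain ⟨w, hw, huw, hvw⟩ := exists_iso_not_perp₂ hns (by rw [Fintype.card_fin]; exact hm) hu0 hv0
  obtain ⟨d, hd0, hd⟩ := exists_skew hns
  have hwu : sp w u ≠ 0 := fun e => huw (sp_zero_comm.1 e)
  obtain ⟨k₁, hk₁, hd₁, e₁⟩ := exists_move hu hw hwu hd0 hd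
  obtain ⟨k₂, hk₂, hd₂, e₂⟩ := exists_move hw hv hvw hd0 hd
  set a := d * sp w u with ha
  set b := d * sp v w with hb
  have ha0 : a ≠ 0 := mul_ne_zero hd0 hwu
  have hb0 : b ≠ 0 := mul_ne_zero hd0 hvw
  refine ⟨(a * b) * star (a * b), k₂ * k₁, mul_ne_zero (mul_ne_zero ha0 hb0) (star_ne_zero.2 (mul_ne_zero ha0 hb0)),
    ?_, by rw [det_mul, hd₁, hd₂, one_mul], ?_⟩
  · rw [conjTranspose_mul, Matrix.mul_assoc, ← Matrix.mul_assoc k₁, hk₁, Matrix.one_mul, hk₂]
  · rw [vmv_conj, ← mulVec_mulVec, e₁, mulVec_smul, e₂, smul_smul, vmv_smul_left, vmv_smul_right, smul_smul]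

/-- The squares of the invertible hermitian matrices span all matrices. -/
theorem eq_top_of_squares (hm : 2 ≤ m) (S : Submodule F mm)
    (h : ∀ A B : mm, Aᴴ = A → A * B = 1 → A * A ∈ S) : S = ⊤ := by
  have h1 : (1 : mm) ∈ S := by simpa using h 1 1 conjTranspose_one (mul_one 1)
  obtain ⟨z₀, hz₀⟩ := id hns
  have hz00 : z₀ ≠ 0 := fun e => hz₀ (by rw [e, star_zero])
  set u := star z₀ / z₀ with hu
  have hu1 : u ≠ 1 := fun e => hz₀ ((div_eq_one_iff_eq hz00).1 e)
  have huu : u * star u = 1 := by
    have := star_ne_zero.2 hz00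
    rw [hu, star_div₀, star_star]
    field_simp
  have pair : ∀ a b : Fin m, a ≠ b → Matrix.single a b (1 : F) ∈ S ∧ Matrix.single b a (1 : F) ∈ S ∧
      Matrix.single a a (1 : F) ∈ S := by
    intro a b hab
    have hba := hab.symm
    have hD : ∀ x : F, x ≠ 0 → (x * star x) • Matrix.single a a (1 : F) + (x * star x - 1) • Matrix.single b b 1 +
        x • Matrix.single a b 1 + star x • Matrix.single b a 1 ∈ S := by
      intro x hx
      have hx' : star x ≠ 0 := star_ne_zero.2 hx
      set A : mm := 1 - Matrix.single b b 1 + x • Matrix.single a b 1 + star x • Matrix.single b a 1 with hA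
      have hAh : Aᴴ = A := by
        simp only [hA, conjTranspose_add, conjTranspose_sub, conjTranspose_one, conjTranspose_smul,
          conjTranspose_single, star_one, star_star]
        abel
      have hinv : A * (1 - Matrix.single a a 1 + (star x)⁻¹ • Matrix.single a b 1 + x⁻¹ • Matrix.single b a 1 +
          (-1 - (x * star x)⁻¹) • Matrix.single b b 1) = 1 := by
        simp only [hA, Matrix.mul_add, Matrix.add_mul, Matrix.mul_sub, Matrix.sub_mul, Matrix.one_mul,
          Matrix.smul_mul, Matrix.mul_smul, Matrix.single_mul_single_same, Matrix.single_mul_single_of_ne, hab, hba,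
          ne_eq, not_false_eq_true, mul_one, smul_zero]
        match_scalars <;> field_simp <;> ring
      have := S.sub_mem (h A _ hAh hinv) h1
      convert this using 1
      simp only [hA, Matrix.mul_add, Matrix.add_mul, Matrix.mul_sub, Matrix.sub_mul, Matrix.one_mul,
        Matrix.smul_mul, Matrix.mul_smul, Matrix.single_mul_single_same, Matrix.single_mul_single_of_ne, hab, hba,
        ne_eq, not_false_eq_true, mul_one, smul_zero]
      match_scalars <;> ring
    have hP : ∀ y : F, y • Matrix.single a b (1 : F) + star y • Matrix.single b a 1 ∈ S := by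
      intro y
      rcases eq_or_ne y 0 with rfl | hy
      · simp
      have hu1' : (1 : F) - u ≠ 0 := sub_ne_zero.2 hu1.symm
      have hu0 : u ≠ 0 := fun e => by rw [e, zero_mul] at huu; exact zero_ne_one huu
      set z := y / (1 - u) with hz
      have hz0 : z ≠ 0 := div_ne_zero hy hu1'
      have := S.sub_mem (hD z hz0) (hD (z * u) (mul_ne_zero hz0 hu0))
      convert this using 1
      have e : z * u * star (z * u) = z * star z := by rw [star_mul']; linear_combination z * star z * huu
      have e1 : z - z * u = y := by rw [← mul_one_sub, hz, div_mul_cancel₀ _ hu1']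
      rw [e, ← e1, star_sub]
      module
    obtain ⟨ξ, hξ⟩ := id hns
    have hba' : Matrix.single b a (1 : F) ∈ S := by
      have := S.smul_mem (star ξ - ξ)⁻¹ (S.sub_mem (hP ξ) (S.smul_mem ξ (hP 1)))
      convert this using 1
      rw [star_one, one_smul, one_smul,
        show ξ • Matrix.single a b (1 : F) + star ξ • Matrix.single b a 1 -
          ξ • (Matrix.single a b (1 : F) + Matrix.single b a 1) = (star ξ - ξ) • Matrix.single b a 1 by module,
        smul_smul, inv_mul_cancel₀ (sub_ne_zero.2 hξ), one_smul]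
    have hab' : Matrix.single a b (1 : F) ∈ S := by
      have := S.sub_mem (hP 1) hba'
      rwa [star_one, one_smul, one_smul, add_sub_cancel_right] at this
    refine ⟨hab', hba', ?_⟩
    have := S.sub_mem (S.sub_mem (hD 1 one_ne_zero) hab') hba'
    simp only [star_one, mul_one, one_smul, sub_self, zero_smul, add_zero] at this
    convert this using 1
    abel
  refine eq_top_iff.2 fun X _ => ?_
  rw [Matrix.matrix_eq_sum_single X]
  refine S.sum_mem fun a _ => S.sum_mem fun b _ => ?_
  rw [← mul_one (X a b), ← smul_eq_mul, ← Matrix.smul_single]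
  refine S.smul_mem _ ?_
  by_cases hab : a = b
  · subst hab
    obtain ⟨c, hc⟩ : ∃ c, c ≠ a := by
      have : Nontrivial (Fin m) := Fin.nontrivial_iff_two_le.2 hm
      exact exists_ne a
    exact (pair a c hc.symm).2.2
  · exact (pair a b hab).1

end One

section Tens

variable {κ : Type} [Fintype κ] [DecidableEq κ] {m : ℕ}

local notation "MM" => Matrix (κ → Fin m) (κ → Fin m) F
local notation "mm" => Matrix (Fin m) (Fin m) F

theorem wm1_conjTranspose (k : κ → mm) : (wm 1 k : MM)ᴴ = wm 1 fun j => (k j)ᴴ := by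
  ext f g
  simp [H5.C7.wm_apply]

theorem sl_conjTranspose (l : κ) (A : mm) : (sl l A : MM)ᴴ = sl l Aᴴ := by
  rw [sl, wm1_conjTranspose, sl]
  congr 1
  funext j
  by_cases h : j = l
  · subst h; simp
  · simp [h]

theorem sl_sum (l : κ) {J : Type*} (s : Finset J) (f : J → mm) :
    (sl l (∑ j ∈ s, f j) : MM) = ∑ j ∈ s, sl l (f j) := by
  classical
  induction s using Finset.induction with
  | empty => simp [H5.C7.sl_zero]
  | insert a s ha ih => rw [Finset.sum_insert ha, Finset.sum_insert ha, H5.C7.sl_add, ih]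

/-- The part at one factor as a linear map. -/
def upd (k : κ → mm) (a : κ) : mm →ₗ[F] MM where
  toFun A := wm 1 (Function.update k a A)
  map_add' := H5.C7.wm1_update_add k a
  map_smul' := H5.C7.wm1_update_smul k a

theorem upd_apply (k : κ → mm) (a : κ) (A : mm) : upd k a A = (wm 1 (Function.update k a A) : MM) := rfl

/-- Contractions vanishing at the isotropic vectors make the factor trivial. -/
theorem fac_one_of_ct [Finite F] (hns : ∃ x : F, star x ≠ x) {α : Type} [Fintype α] [DecidableEq α]
    {Z : Matrix (α × Fin m) (α × Fin m) F}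
    (h : ∀ v : Fin m → F, sp v v = 0 → H99.TensorU.ct α Z v v = 0) :
    ∃ R : Matrix α α F, Z = R ⊗ₖ (1 : mm) := by
  have key : ∀ a b : α, ∃ c : F, (Matrix.of fun k k' => Z (a, k) (b, k') : mm) = c • (1 : mm) := fun a b =>
    scalar_of_iso hns fun v hv => by
      have := congrFun (congrFun (h v hv) a) b
      rw [Matrix.zero_apply] at this
      rw [← this]
      simp [H99.TensorU.ct, sp, mulVec, dotProduct, Matrix.mul_apply, lft_apply, rgt_apply, Fintype.sum_prod_type,
        Finset.mul_sum, Finset.sum_mul, mul_assoc]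
      exact Finset.sum_comm
  choose R hR using key
  refine ⟨Matrix.of R, ?_⟩
  ext ⟨a, k⟩ ⟨b, k'⟩
  have := congrFun (congrFun (hR a b) k) k'
  simpa [Matrix.of_apply] using this

/-- A space of matrices closed under the operations of a layer. -/
structure Cl (W : Submodule F (Matrix (κ → Fin m) (κ → Fin m) F)) : Prop where
  ns : ∃ x : F, star x ≠ x
  three : 3 ≤ m
  one : (1 : Matrix (κ → Fin m) (κ → Fin m) F) ∈ W
  conj : ∀ (l : κ) (h : Matrix (Fin m) (Fin m) F), h * hᴴ = 1 → h.det = 1 → ∀ X ∈ W, sl l h * X * sl l hᴴ ∈ W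
  quad : ∀ G H : Matrix (κ → Fin m) (κ → Fin m) F, Gᴴ = -G → G * H = 1 → G ∈ W → H ∈ W → ∀ X ∈ W, G * X * G ∈ W
  mul : 4 ≤ m → ∀ X ∈ W, ∀ Y ∈ W, X * Y ∈ W
  spread : ∀ s l : κ, (∀ A, sl s A ∈ W) → ∀ A, sl l A ∈ W

variable [Finite F] {W : Submodule F (Matrix (κ → Fin m) (κ → Fin m) F)} (C : Cl W)
include C

theorem Cl.sandwich {X : MM} (hX : X ∈ W) (l : κ) {v : Fin m → F} (hv : sp v v = 0) :
    sl l (vecMulVec v (star v)) * X * sl l (vecMulVec v (star v)) ∈ W := by
  set n : mm := vecMulVec v (star v) with hn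
  set N : MM := sl l n with hN
  have hT : ∀ d : F, star d = -d → X + d • (N * X - X * N) - (d * d) • (N * X * N) ∈ W := by
    intro d hd
    have := C.conj l _ (trans_unitary hv hd).1 (trans_unitary hv hd).2 X hX
    convert this using 1
    rw [← hn, conjTranspose_add, conjTranspose_one, conjTranspose_smul, hn, vmv_conjTranspose, ← hn, hd,
      H5.C7.sl_add, H5.C7.sl_add, H5.C7.sl_one, H5.C7.sl_smul, H5.C7.sl_smul, ← hN]
    simp only [Matrix.add_mul, Matrix.mul_add, Matrix.one_mul, Matrix.mul_one, Matrix.smul_mul, Matrix.mul_smul]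
    module
  obtain ⟨d, hd0, hd⟩ := exists_skew C.ns
  by_cases hq : ∃ r : F, star r = r ∧ r ≠ 0 ∧ r ≠ 1
  · obtain ⟨r, hr, hr0, hr1⟩ := hq
    have hr' : r * r - r ≠ 0 := by
      rw [show r * r - r = r * (r - 1) by ring]
      exact mul_ne_zero hr0 (sub_ne_zero.2 hr1)
    have h2 := W.sub_mem (W.sub_mem (W.smul_mem r (hT d hd)) (hT (r * d) (by rw [star_mul', hr, hd]; ring)))
      (W.smul_mem (r - 1) hX)
    have h3 := W.smul_mem ((r * r - r) * (d * d))⁻¹ h2
    convert h3 using 1
    rw [show r • (X + d • (N * X - X * N) - (d * d) • (N * X * N)) -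
        (X + (r * d) • (N * X - X * N) - (r * d * (r * d)) • (N * X * N)) - (r - 1) • X =
      ((r * r - r) * (d * d)) • (N * X * N) by module, smul_smul,
      inv_mul_cancel₀ (mul_ne_zero hr' (mul_ne_zero hd0 hd0)), one_smul]
  -- two elements in the fixed field
  push Not at hq
  have h2 : (2 : F) = 0 := by
    by_contra h
    have := hq 2 (by rw [star_ofNat]) h
    exact one_ne_zero (α := F) (by linear_combination this)
  have hneg : ∀ x : F, -x = x := fun x => by linear_combination (-x) * h2
  obtain ⟨e, hve, hee⟩ : ∃ e : Fin m → F, sp v e = 0 ∧ sp e e = 1 := by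
    obtain ⟨U, hU, hUv⟩ := finrank_perp ![v]
    obtain ⟨y, hy, hyy⟩ : ∃ y ∈ U, sp y y ≠ 0 := by
      by_contra h
      push Not at h
      have := H98.Herm.ti_bound (hform_unitary (ι := Fin m) C.ns) U fun x hx y hy => by
        change sp y x = 0
        by_contra hxy
        obtain ⟨t, ht⟩ := exists_trace C.ns (a := (1 : F)) (star_one F)
        have h1 := h _ (U.add_mem hx (U.smul_mem (t / sp x y) hy))
        rw [sp_add_left, sp_add_right, sp_add_right, sp_smul_left, sp_smul_left, sp_smul_right, sp_smul_right,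
          h x hx, h y hy, div_mul_cancel₀ _ (fun h0 => hxy (sp_zero_comm.1 h0))] at h1
        have h3 : star (t / sp x y) * sp y x = star t := by
          rw [star_div₀, sp_star, div_mul_cancel₀ _ hxy]
        rw [h3] at h1
        exact one_ne_zero (α := F) (by linear_combination h1 - ht)
      rw [Fintype.card_fin] at this hU
      have := C.three
      omega
    exact ⟨y, hUv y hy 0, hq _ (sp_star y y) hyy⟩
  have hev : sp e v = 0 := sp_zero_comm.1 hve
  obtain ⟨c, hc⟩ := exists_trace C.ns (a := (-1 : F)) (by rw [star_neg, star_one])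
  set D := N * X + X * N + N * X * N with hD
  have hDW : D ∈ W := by
    have := W.sub_mem (hT 1 (by rw [star_one, hneg])) hX
    convert this using 1
    rw [hD]
    match_scalars <;> first | ring1 | linear_combination h2
  set u : F → mm := fun t => 1 + nil v (t • e) c with hu
  have hun : ∀ t, u t * n = n := by
    intro t
    simp only [hu, hn, nil, Matrix.add_mul, Matrix.sub_mul, Matrix.one_mul, Matrix.smul_mul, vmv_mul, hv,
      sp_smul_left, hev, mul_zero, zero_smul, smul_zero, sub_zero, add_zero]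
  have hUN : ∀ t, (sl l (u t) : MM) * N = N := fun t => by rw [hN, H5.C7.sl_mul, hun]
  have hNU : ∀ t, N * (sl l (u t)ᴴ : MM) = N := fun t => by
    have e' := congrArg Matrix.conjTranspose (hun t)
    rw [conjTranspose_mul, hn, vmv_conjTranspose, ← hn] at e'
    rw [hN, H5.C7.sl_mul, e']
  have hU : ∀ t : F, t ≠ 0 → N * X * sl l (u t)ᴴ + sl l (u t) * X * N + N * X * N ∈ W := by
    intro t ht
    have hnorm : t * star t = 1 := hq _ (by rw [star_mul', star_star, mul_comm]) (mul_ne_zero ht (star_ne_zero.2 ht))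
    obtain ⟨hu1, hu2⟩ := root_unitary (w := v) (η := t • e) (c := c) hv (by rw [sp_smul_right, hve, mul_zero]) (by
      rw [sp_smul_left, sp_smul_right, hee]
      linear_combination hc + hnorm)
    have := C.conj l (u t) hu1 hu2 D hDW
    convert this using 1
    rw [hD]
    simp only [Matrix.mul_add, Matrix.add_mul, ← Matrix.mul_assoc, hUN]
    simp only [Matrix.mul_assoc, hNU]
  obtain ⟨x, hx⟩ := id C.ns
  have hx0 : x ≠ 0 := fun h0 => hx (by rw [h0, star_zero])
  have hx1 : x + 1 ≠ 0 := fun h0 => hx (by rw [eq_neg_of_add_eq_zero_left h0, star_neg, star_one])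
  have hsum := W.sub_mem (W.add_mem (W.add_mem (hU 1 one_ne_zero) (hU x hx0)) (hU (x + 1) hx1)) hDW
  have hs : u 1 + u x + u (x + 1) = 1 + c • n := by
    simp only [hu, nil, hn, vmv_smul_left, vmv_smul_right, star_add, star_one]
    match_scalars
    · linear_combination h2
    · linear_combination (1 + x) * h2
    · linear_combination -(1 + star x) * h2
    · linear_combination c * h2
  have hs' : (sl l (u 1) : MM) + sl l (u x) + sl l (u (x + 1)) = 1 + c • N := by
    rw [← H5.C7.sl_add, ← H5.C7.sl_add, hs, H5.C7.sl_add, H5.C7.sl_one, H5.C7.sl_smul, hN]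
  have hs'' : (sl l (u 1)ᴴ : MM) + sl l (u x)ᴴ + sl l (u (x + 1))ᴴ = 1 + star c • N := by
    have e' : (u 1)ᴴ + (u x)ᴴ + (u (x + 1))ᴴ = 1 + star c • n := by
      rw [← conjTranspose_add, ← conjTranspose_add, hs, conjTranspose_add, conjTranspose_one, conjTranspose_smul, hn,
        vmv_conjTranspose]
    rw [← H5.C7.sl_add, ← H5.C7.sl_add, e', H5.C7.sl_add, H5.C7.sl_one, H5.C7.sl_smul, hN]
  convert hsum using 1
  rw [show N * X * sl l (u 1)ᴴ + sl l (u 1) * X * N + N * X * N + (N * X * sl l (u x)ᴴ + sl l (u x) * X * N + N * X * N) +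
      (N * X * sl l (u (x + 1))ᴴ + sl l (u (x + 1)) * X * N + N * X * N) =
    N * X * (sl l (u 1)ᴴ + sl l (u x)ᴴ + sl l (u (x + 1))ᴴ) + (sl l (u 1) + sl l (u x) + sl l (u (x + 1))) * X * N +
      (3 : F) • (N * X * N) by simp only [Matrix.mul_add, Matrix.add_mul]; module, hs', hs'', hD]
  simp only [Matrix.mul_add, Matrix.add_mul, Matrix.one_mul, Matrix.mul_one, Matrix.smul_mul, Matrix.mul_smul]
  match_scalars
  all_goals first | ring1 | linear_combination (-1) * hc | linear_combination (-1) * hc - h2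

/-- Splitting off one factor. -/
theorem Cl.split {X : MM} (hX : X ∈ W) (l : κ) :
    Fac l 1 X ∨ ∃ (X' : MM) (B : mm), X' ≠ 0 ∧ X' ∈ W ∧ IsI B ∧ Fac l B X' ∧
      ∀ (j : κ) (A : mm), j ≠ l → Fac j A X → Fac j A X' := by
  set α := {j : κ // j ≠ l} → Fin m
  set Z := rI l X with hZ
  have e : ∀ v : Fin m → F, rI l (sl l (vecMulVec v (star v)) * X * sl l (vecMulVec v (star v))) =
      H99.TensorU.ct α Z v v ⊗ₖ vecMulVec v (star v) := fun v => by
    rw [map_mul, map_mul, H5.C7.rI_sl_self, ← lft_mul_rgt, ← lft_mid_rgt, H99.TensorU.ct, hZ]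
    simp only [Matrix.mul_assoc]
    rfl
  by_cases h : ∀ v : Fin m → F, sp v v = 0 → H99.TensorU.ct α Z v v = 0
  · exact Or.inl (fac_one_of_ct C.ns h)
  push Not at h
  obtain ⟨v, hv, hct⟩ := h
  have hv0 : v ≠ 0 := fun e0 => hct (by
    rw [e0, ← zero_smul F (0 : Fin m → F), H99.TensorU.ct_smul_right, zero_smul])
  have hI : IsI (vecMulVec v (star v)) := ⟨v, hv0, hv, rfl⟩
  refine Or.inr ⟨_, _, fun e0 => hct ?_, C.sandwich hX l hv, hI, ⟨_, e v⟩,
    fun j A hj hA => (hA.sl_left hj.symm).sl_right hj.symm⟩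
  have := e v
  rw [e0, map_zero] at this
  exact H5.C7.kron_cancel hI.ne (this.symm.trans (zero_kronecker _).symm)

/-- A product of transvection parts from an element that is not scalar. -/
theorem Cl.seed {X₀ : MM} (hX₀ : X₀ ∈ W) (hns : ∀ c : F, X₀ ≠ c • 1) :
    ∃ (S : Finset κ) (k : κ → mm), S.Nonempty ∧ (∀ l ∈ S, IsI (k l)) ∧ (∀ l, l ∉ S → k l = 1) ∧ wm 1 k ∈ W := by
  classical
  have P : ∀ D : Finset κ, ∃ (X : MM) (k : κ → mm), X ≠ 0 ∧ X ∈ W ∧ (∀ l ∈ D, Fac l (k l) X) ∧
      (∀ l, k l = 1 ∨ IsI (k l)) ∧ (X = X₀ ∨ ∃ l ∈ D, IsI (k l)) := by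
    intro D
    induction D using Finset.induction with
    | empty => exact ⟨X₀, fun _ => 1, fun e => hns 0 (by rw [e, zero_smul]), hX₀, by simp, fun _ => Or.inl rfl,
        Or.inl rfl⟩
    | insert a D ha ih =>
      obtain ⟨X, k, hX, hXW, hD, hk, hor⟩ := ih
      have hne : ∀ i ∈ D, i ≠ a := fun i hi e => ha (e ▸ hi)
      rcases C.split hXW a with h | ⟨X', B, hX', hX'W, hB, hfB, hkeep⟩
      · refine ⟨X, Function.update k a 1, hX, hXW, fun i hi => ?_, fun i => ?_, hor.imp id fun ⟨l, hl, hl'⟩ =>
          ⟨l, Finset.mem_insert_of_mem hl, by rwa [Function.update_of_ne (hne l hl)]⟩⟩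
        · rcases Finset.mem_insert.1 hi with rfl | hi
          · rwa [Function.update_self]
          · rw [Function.update_of_ne (hne i hi)]; exact hD i hi
        · by_cases hia : i = a
          · subst hia; rw [Function.update_self]; exact Or.inl rfl
          · rw [Function.update_of_ne hia]; exact hk i
      · refine ⟨X', Function.update k a B, hX', hX'W, fun i hi => ?_, fun i => ?_,
          Or.inr ⟨a, Finset.mem_insert_self a D, by rwa [Function.update_self]⟩⟩
        · rcases Finset.mem_insert.1 hi with rfl | hi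
          · rwa [Function.update_self]
          · rw [Function.update_of_ne (hne i hi)]; exact hkeep i _ (hne i hi) (hD i hi)
        · by_cases hia : i = a
          · subst hia; rw [Function.update_self]; exact Or.inr hB
          · rw [Function.update_of_ne hia]; exact hk i
  obtain ⟨X, k, hX, hXW, hD, hk, hor⟩ := P Finset.univ
  have hm : 0 < m := by have := C.three; omega
  have hne : ∀ i, k i ≠ 0 := fun i => by
    rcases hk i with h | h
    · rw [h]
      intro e
      simpa using congrFun (congrFun e ⟨0, hm⟩) ⟨0, hm⟩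
    · exact h.ne
  obtain ⟨c, hc⟩ := H5.C7.eq_wm_of_fac hne fun i => hD i (Finset.mem_univ i)
  have hc0 : c ≠ 0 := fun e => hX (by rw [hc, e, zero_smul])
  refine ⟨Finset.univ.filter fun l => IsI (k l), k, ?_, fun l hl => (Finset.mem_filter.1 hl).2,
    fun l hl => (hk l).resolve_right fun h => hl (Finset.mem_filter.2 ⟨Finset.mem_univ l, h⟩), ?_⟩
  · rcases hor with rfl | ⟨l, -, hl⟩
    · by_contra hS
      have h1 : k = fun _ => 1 := funext fun l => (hk l).resolve_right fun h =>
        hS ⟨l, Finset.mem_filter.2 ⟨Finset.mem_univ l, h⟩⟩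
      exact hns c (by rw [hc, h1, H5.C7.wm_one])
    · exact ⟨l, Finset.mem_filter.2 ⟨Finset.mem_univ l, hl⟩⟩
  · rw [hc] at hXW
    have := W.smul_mem c⁻¹ hXW
    rwa [smul_smul, inv_mul_cancel₀ hc0, one_smul] at this

omit C in
/-- From the transvection parts to all parts of trace zero. -/
theorem multi (hns : ∃ x : F, star x ≠ x) (W' : Submodule F MM) (S : Finset κ)
    (h : ∀ k : κ → mm, (∀ l ∈ S, IsI (k l)) → (∀ l, l ∉ S → k l = 1) → wm 1 k ∈ W') :
    ∀ k : κ → mm, (∀ l ∈ S, (k l).trace = 0) → (∀ l, l ∉ S → k l = 1) → wm 1 k ∈ W' := by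
  classical
  have P : ∀ D : Finset κ, D ⊆ S → ∀ k : κ → mm, (∀ l ∈ D, (k l).trace = 0) → (∀ l ∈ S, l ∉ D → IsI (k l)) →
      (∀ l, l ∉ S → k l = 1) → wm 1 k ∈ W' := by
    intro D
    induction D using Finset.induction with
    | empty => exact fun _ k _ h1 h2 => h k (fun l hl => h1 l hl (Finset.notMem_empty l)) h2
    | insert a D ha ih =>
      intro hDS k hk0 hk1 hk2
      have haS : a ∈ S := hDS (Finset.mem_insert_self a D)
      have hle : Submodule.span F {A : mm | IsI A} ≤ W'.comap (upd k a) := by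
        refine Submodule.span_le.2 fun A hA => ?_
        refine ih (fun l hl => hDS (Finset.mem_insert_of_mem hl)) _ (fun l hl => ?_) (fun l hl hlD => ?_) fun l hl => ?_
        · rw [Function.update_of_ne (fun e : l = a => ha (e ▸ hl))]
          exact hk0 l (Finset.mem_insert_of_mem hl)
        · by_cases hla : l = a
          · subst hla; rw [Function.update_self]; exact hA
          · rw [Function.update_of_ne hla]
            exact hk1 l hl fun h' => (Finset.mem_insert.1 h').elim hla hlD
        · rw [Function.update_of_ne (fun e : l = a => hl (e ▸ haS))]; exact hk2 l hl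
      have := hle (mem_span_isI hns (hk0 a (Finset.mem_insert_self a D)))
      rwa [Submodule.mem_comap, upd_apply, Function.update_eq_self] at this
  exact fun k h0 h1 => P S (subset_refl S) k h0 (fun l hl hl' => absurd hl hl') h1

/-- All products of transvection parts on the support of one of them. -/
theorem Cl.isI_all {S : Finset κ} {k₀ : κ → mm} (h0 : ∀ l ∈ S, IsI (k₀ l)) (h1 : ∀ l, l ∉ S → k₀ l = 1)
    (hW : wm 1 k₀ ∈ W) {k : κ → mm} (hk : ∀ l ∈ S, IsI (k l)) (hk1 : ∀ l, l ∉ S → k l = 1) : wm 1 k ∈ W := by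
  classical
  have P : ∀ D : Finset κ, ∀ k : κ → mm, (∀ l ∈ D, IsI (k l) ∧ l ∈ S) → (∀ l, l ∉ D → k l = k₀ l) → wm 1 k ∈ W := by
    intro D
    induction D using Finset.induction with
    | empty =>
      intro k _ hk
      rwa [show k = k₀ from funext fun l => hk l (Finset.notMem_empty l)]
    | insert a D ha ih =>
      intro k hk hk'
      obtain ⟨hka, haS⟩ := hk a (Finset.mem_insert_self a D)
      obtain ⟨μ, h, hμ, hh, hd, he⟩ := exists_move_isI C.ns (by have := C.three; omega) (h0 a haS) hka
      have h2 := ih (Function.update k a (k₀ a)) (fun l hl => by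
        rw [Function.update_of_ne (fun e : l = a => ha (e ▸ hl))]
        exact hk l (Finset.mem_insert_of_mem hl)) fun l hl => by
        by_cases hla : l = a
        · subst hla; rw [Function.update_self]
        · rw [Function.update_of_ne hla]
          exact hk' l fun h' => (Finset.mem_insert.1 h').elim hla hl
      have h3 := C.conj a h hh hd _ h2
      rw [H5.C7.sl_wm1_sl, Function.update_self, Function.update_idem, he, H5.C7.wm1_update_smul,
        Function.update_eq_self] at h3
      have := W.smul_mem μ⁻¹ h3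
      rwa [smul_smul, inv_mul_cancel₀ hμ, one_smul] at this
  exact P S k (fun l hl => ⟨hk l hl, hl⟩) fun l hl => (hk1 l hl).trans (h1 l hl).symm

/-- The symmetric products of two parts of trace zero. -/
theorem Cl.anti {S : Finset κ} (hS : S.Nonempty) {k₀ : κ → mm} (h0 : ∀ l ∈ S, IsI (k₀ l))
    (h1 : ∀ l, l ∉ S → k₀ l = 1) (hW : wm 1 k₀ ∈ W) {x y : κ → mm} (hx : ∀ l ∈ S, (x l).trace = 0)
    (hx1 : ∀ l, l ∉ S → x l = 1) (hy : ∀ l ∈ S, (y l).trace = 0) (hy1 : ∀ l, l ∉ S → y l = 1) :
    (wm 1 x : MM) * wm 1 y + wm 1 y * wm 1 x ∈ W := by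
  obtain ⟨a, ha⟩ := hS
  have all0 := multi C.ns W S fun k hk hk1 => C.isI_all h0 h1 hW hk hk1
  refine multi C.ns (W.comap (LinearMap.mulRight F (wm 1 y : MM) + LinearMap.mulLeft F (wm 1 y : MM))) S
    (fun k hk hk1 => ?_) x hx hx1
  simp only [Submodule.mem_comap, LinearMap.add_apply, LinearMap.mulRight_apply, LinearMap.mulLeft_apply]
  set K : MM := wm 1 k with hK
  set Y : MM := wm 1 y with hY
  have hKW : K ∈ W := C.isI_all h0 h1 hW hk hk1
  have hKK : K * K = 0 := by
    rw [hK, H5.C7.wm1_mul]
    exact H5.C7.wm1_eq_zero a (hk a ha).sq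
  have hKh : Kᴴ = K := by
    rw [hK, wm1_conjTranspose]
    congr 1
    funext l
    by_cases hl : l ∈ S
    · exact (hk l hl).herm
    · rw [hk1 l hl, conjTranspose_one]
  have hYW : Y ∈ W := all0 y hy hy1
  have hKYK : K * Y * K ∈ W := by
    rw [hK, hY, H5.C7.wm1_mul, H5.C7.wm1_mul]
    exact all0 _ (fun l hl => (hk l hl).sandwich _) fun l hl => by rw [hk1 l hl, hy1 l hl, one_mul, one_mul]
  obtain ⟨d, hd0, hd⟩ := exists_skew C.ns
  have h3 := C.quad (d • (1 + K)) (d⁻¹ • (1 - K)) (by
      rw [conjTranspose_smul, conjTranspose_add, conjTranspose_one, hKh, hd, neg_smul]) (by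
      rw [Matrix.smul_mul, Matrix.mul_smul, smul_smul, mul_inv_cancel₀ hd0, one_smul, Matrix.add_mul, Matrix.one_mul,
        Matrix.mul_sub, Matrix.mul_one, hKK]
      abel)
    (W.smul_mem _ (W.add_mem C.one hKW)) (W.smul_mem _ (W.sub_mem C.one hKW)) Y hYW
  have h4 := W.sub_mem (W.sub_mem (W.smul_mem (d * d)⁻¹ h3) hYW) hKYK
  convert h4 using 1
  simp only [Matrix.smul_mul, Matrix.mul_smul, smul_smul, Matrix.add_mul, Matrix.mul_add, Matrix.one_mul,
    Matrix.mul_one]
  match_scalars <;> field_simp <;> ring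

/-- A transvection part of one factor. -/
theorem Cl.single {X₀ : MM} (hX₀ : X₀ ∈ W) (hns : ∀ c : F, X₀ ≠ c • 1) :
    ∃ (s : κ) (A : mm), IsI A ∧ sl s A ∈ W := by
  classical
  obtain ⟨S, k₀, hS, h0, h1, hW⟩ := C.seed hX₀ hns
  obtain ⟨s, hs⟩ := id hS
  have hm := C.three
  let i₀ : Fin m := ⟨0, by omega⟩
  let i₁ : Fin m := ⟨1, by omega⟩
  let i₂ : Fin m := ⟨2, by omega⟩
  have e01 : i₀ ≠ i₁ := by simp [i₀, i₁, Fin.ext_iff]
  have e12 : i₁ ≠ i₂ := by simp [i₁, i₂, Fin.ext_iff]
  have e02 : i₀ ≠ i₂ := by simp [i₀, i₂, Fin.ext_iff]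
  have : Nontrivial (Fin m) := Fin.nontrivial_iff_two_le.2 (by omega)
  choose nx hnx using fun a : Fin m => exists_ne a
  set E : mm := Matrix.single i₀ i₂ 1 with hE
  -- products of parts of trace zero
  have hdiag : ∀ g : κ → Fin m, wm 1 (fun l => if l = s then E else if l ∈ S then Matrix.single (g l) (g l) 1 else 1)
      ∈ W := by
    intro g
    set x : κ → mm := fun l => if l = s then Matrix.single i₀ i₁ 1 else
      if l ∈ S then Matrix.single (g l) (nx (g l)) 1 else 1 with hx
    set y : κ → mm := fun l => if l = s then Matrix.single i₁ i₂ 1 else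
      if l ∈ S then Matrix.single (nx (g l)) (g l) 1 else 1 with hy
    have := C.anti hS h0 h1 hW (x := x) (y := y)
      (fun l hl => by
        simp only [hx]
        split_ifs
        · exact Matrix.trace_single_eq_of_ne _ _ _ e01
        · exact Matrix.trace_single_eq_of_ne _ _ _ (hnx _).symm)
      (fun l hl => by simp only [hx]; rw [if_neg (fun e : l = s => hl (e ▸ hs)), if_neg hl])
      (fun l hl => by
        simp only [hy]
        split_ifs
        · exact Matrix.trace_single_eq_of_ne _ _ _ e12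
        · exact Matrix.trace_single_eq_of_ne _ _ _ (hnx _))
      (fun l hl => by simp only [hy]; rw [if_neg (fun e : l = s => hl (e ▸ hs)), if_neg hl])
    rw [H5.C7.wm1_mul, H5.C7.wm1_mul, H5.C7.wm1_eq_zero (k := fun i => y i * x i) s
      (by simp [hx, hy, Matrix.single_mul_single_of_ne, e02.symm]), add_zero] at this
    convert this using 2
    funext l
    simp only [hx, hy, hE]
    split_ifs <;> simp [Matrix.single_mul_single_same]
  have hE' : ∀ D : Finset κ, ∀ g : κ → Fin m, wm 1 (fun l => if l = s then E else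
      if l ∈ S ∧ l ∉ D then Matrix.single (g l) (g l) 1 else 1) ∈ W := by
    intro D
    induction D using Finset.induction with
    | empty => intro g; simpa using hdiag g
    | insert a D ha ih =>
      intro g
      by_cases has : a = s ∨ a ∉ S
      · convert ih g using 3 with l
        by_cases hla : l = a
        · subst hla
          rcases has with h | h <;> simp [h]
        · simp [hla]
      rw [not_or, not_not] at has
      set k : κ → mm := fun l => if l = s then E else
        if l ∈ S ∧ l ∉ insert a D then Matrix.single (g l) (g l) 1 else 1 with hk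
      have hka : k a = 1 := by simp [hk, has.1]
      have h2 : ∀ j : Fin m, upd k a (Matrix.single j j 1) ∈ W := fun j => by
        rw [upd_apply]
        convert ih (Function.update g a j) using 2
        funext l
        by_cases hla : l = a
        · subst hla; simp [has.1, has.2, ha]
        · simp [hk, hla]
      have h3 := W.sum_mem (t := Finset.univ) fun j _ => h2 j
      rw [← map_sum, Matrix.sum_single_one, upd_apply, ← hka, Function.update_eq_self] at h3
      exact h3
  have hEW : sl s E ∈ W := by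
    convert hE' S (fun _ => i₀) using 1
    rw [sl]
    congr 1
    funext l
    by_cases hls : l = s
    · subst hls; simp
    · simp [hls]
  obtain ⟨v, hv, hvE⟩ : ∃ v : Fin m → F, sp v v = 0 ∧ sp v (E *ᵥ v) ≠ 0 := by
    by_contra hc
    push Not at hc
    obtain ⟨c, hc⟩ := scalar_of_iso C.ns hc
    have := congrFun (congrFun hc i₀) i₂
    simp [hE, e02] at this
  have hv0 : v ≠ 0 := fun e => hvE (by rw [e, sp_zero_left])
  refine ⟨s, vecMulVec v (star v), ⟨v, hv0, hv, rfl⟩, ?_⟩
  have h3 := C.sandwich hEW s hv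
  rw [H5.C7.sl_mul, H5.C7.sl_mul, vmv_sandwich, H5.C7.sl_smul] at h3
  have := W.smul_mem (sp v (E *ᵥ v))⁻¹ h3
  rwa [smul_smul, inv_mul_cancel₀ hvE, one_smul] at this

/-- One full factor. -/
theorem Cl.full {s : κ} {A : mm} (hA : IsI A) (hAW : sl s A ∈ W) (X : mm) : sl s X ∈ W := by
  classical
  have h0 : ∀ l ∈ ({s} : Finset κ), IsI (Function.update (fun _ : κ => (1 : mm)) s A l) := fun l hl => by
    obtain rfl := Finset.mem_singleton.1 hl
    rwa [Function.update_self]
  have h1 : ∀ l, l ∉ ({s} : Finset κ) → Function.update (fun _ : κ => (1 : mm)) s A l = 1 := fun l hl => by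
    rw [Function.update_of_ne (fun e => hl (Finset.mem_singleton.2 e))]
  have hfam : ∀ Y : mm, Y.trace = 0 → (∀ l ∈ ({s} : Finset κ), (Function.update (fun _ : κ => (1 : mm)) s Y l).trace = 0)
      ∧ (∀ l, l ∉ ({s} : Finset κ) → Function.update (fun _ : κ => (1 : mm)) s Y l = 1) := fun Y hY =>
    ⟨fun l hl => by obtain rfl := Finset.mem_singleton.1 hl; rwa [Function.update_self],
      fun l hl => by rw [Function.update_of_ne (fun e => hl (Finset.mem_singleton.2 e))]⟩
  have hz : ∀ Y : mm, Y.trace = 0 → sl s Y ∈ W := fun Y hY =>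
    multi C.ns W {s} (fun k hk hk1 => C.isI_all h0 h1 hAW hk hk1) _ (hfam Y hY).1 (hfam Y hY).2
  obtain ⟨B, hB, hBW⟩ : ∃ B : mm, B.trace ≠ 0 ∧ sl s B ∈ W := by
    by_cases hm0 : (m : F) ≠ 0
    · exact ⟨1, by rwa [trace_one, Fintype.card_fin], by rw [H5.C7.sl_one]; exact C.one⟩
    push Not at hm0
    obtain ⟨w, -, hw0, hw⟩ := exists_iso_in C.ns (⊤ : Submodule F (Fin m → F)) (by
      have := C.three
      simp; omega)
    obtain ⟨w', hw', h1', h2'⟩ := partner C.ns hw0 hw
    have hw'0 : w' ≠ 0 := fun e => zero_ne_one ((sp_zero_right w).symm.trans (e ▸ h1'))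
    set n : mm := vecMulVec w (star w)
    set n' : mm := vecMulVec w' (star w')
    have hI : IsI n := ⟨w, hw0, hw, rfl⟩
    have hI' : IsI n' := ⟨w', hw'0, hw', rfl⟩
    have tr : (n * n').trace = 1 ∧ (n' * n).trace = 1 := by
      constructor <;> simp only [n, n', vmv_mul, h1', h2', one_smul, trace_vecMulVec] <;> rw [dotProduct_comm]
      · exact h2'
      · exact h1'
    rcases Nat.lt_or_ge m 4 with hm4 | hm4
    · refine ⟨n * n' + n' * n, ?_, ?_⟩
      · have e3 : (3 : F) = 0 := by
          have : m = 3 := by have := C.three; omega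
          subst this
          simpa using hm0
        rw [trace_add, tr.1, tr.2]
        intro e
        exact one_ne_zero (α := F) (by linear_combination e3 - e)
      · have := C.anti ⟨s, Finset.mem_singleton_self s⟩ h0 h1 hAW (hfam n hI.trace).1 (hfam n hI.trace).2
          (hfam n' hI'.trace).1 (hfam n' hI'.trace).2
        rw [H5.C7.sl_add, ← H5.C7.sl_mul, ← H5.C7.sl_mul]
        exact this
    · refine ⟨n * n', by rw [tr.1]; exact one_ne_zero, ?_⟩
      rw [← H5.C7.sl_mul]
      exact C.mul hm4 _ (hz n hI.trace) _ (hz n' hI'.trace)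
  have h4 := W.add_mem (hz (X - (X.trace / B.trace) • B) (by
    rw [trace_sub, trace_smul, smul_eq_mul, div_mul_cancel₀ _ hB, sub_self]))
    (W.smul_mem (X.trace / B.trace) hBW)
  rwa [← H5.C7.sl_smul, ← H5.C7.sl_add, sub_add_cancel] at h4

/-- A closed space with an element that is not scalar is everything. -/
theorem Cl.eq_top {X₀ : MM} (hX₀ : X₀ ∈ W) (hns : ∀ c : F, X₀ ≠ c • 1) : W = ⊤ := by
  classical
  obtain ⟨s, A, hA, hAW⟩ := C.single hX₀ hns
  have hfull : ∀ (l : κ) (A : mm), sl l A ∈ W := fun l => C.spread s l (C.full hA hAW)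
  obtain ⟨d, hd0, hd⟩ := exists_skew C.ns
  have P : ∀ D : Finset κ, ∀ k : κ → mm, (∀ l, l ∉ D → k l = 1) → wm 1 k ∈ W := by
    intro D
    induction D using Finset.induction with
    | empty =>
      intro k hk
      rw [show k = fun _ => 1 from funext fun l => hk l (Finset.notMem_empty l), H5.C7.wm_one]
      exact C.one
    | insert a D ha ih =>
      intro k hk
      have hY := ih (Function.update k a 1) fun l hl => by
        by_cases hla : l = a
        · subst hla; rw [Function.update_self]
        · rw [Function.update_of_ne hla]; exact hk l fun h' => (Finset.mem_insert.1 h').elim hla hl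
      have htop := eq_top_of_squares C.ns (by have := C.three; omega) (W.comap (upd k a)) fun B B' hB hBB => by
        have h1 : (sl a (d • B) : MM) * sl a (d⁻¹ • B') = 1 := by
          rw [H5.C7.sl_mul, Matrix.smul_mul, Matrix.mul_smul, smul_smul, mul_inv_cancel₀ hd0, one_smul, hBB,
            H5.C7.sl_one]
        have h2 := C.quad _ _ (by
          rw [sl_conjTranspose, conjTranspose_smul, hB, hd, neg_smul, ← neg_one_smul F (d • B), H5.C7.sl_smul,
            neg_one_smul]) h1 (hfull a _) (hfull a _) _ hY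
        rw [H5.C7.sl_wm1_sl, Function.update_self, Function.update_idem, Matrix.mul_one, Matrix.smul_mul,
          Matrix.mul_smul, smul_smul, H5.C7.wm1_update_smul] at h2
        have := W.smul_mem (d * d)⁻¹ h2
        rwa [smul_smul, inv_mul_cancel₀ (mul_ne_zero hd0 hd0), one_smul] at this
      have := (htop ▸ Submodule.mem_top : k a ∈ W.comap (upd k a))
      rwa [Submodule.mem_comap, upd_apply, Function.update_eq_self] at this
  refine eq_top_iff.2 fun X _ => ?_
  rw [Matrix.matrix_eq_sum_single X]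
  refine W.sum_mem fun f _ => W.sum_mem fun g _ => ?_
  rw [← mul_one (X f g), ← smul_eq_mul, ← Matrix.smul_single]
  refine W.smul_mem _ ?_
  convert P Finset.univ (fun j => Matrix.single (f j) (g j) 1) (fun l hl => absurd (Finset.mem_univ l) hl) using 1
  ext p r
  rw [H5.C7.wm_apply]
  simp only [Equiv.Perm.one_apply, Matrix.single_apply]
  by_cases h : f = p ∧ g = r
  · obtain ⟨rfl, rfl⟩ := h
    simp
  · rw [if_neg h, eq_comm, Finset.prod_eq_zero_iff]
    by_contra hc
    push Not at hc
    exact h ⟨funext fun j => ((ite_ne_right_iff.1 (hc j (Finset.mem_univ j))).1).1,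
      funext fun j => ((ite_ne_right_iff.1 (hc j (Finset.mem_univ j))).1).2⟩

end Tens

end Cfsg.Agent.H66.TensorWreathSU
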